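import Mathlib
import Cfsg.Agent.PGrp.Sect2
import Cfsg.Agent.PGrp.Aut
import Cfsg.Agent.Core.Coprime2

/-! Two-constrained groups of sectional rank four: elements of order five. -/

set_option autoImplicit false

namespace Cfsg.Agent.GH4

open Cfsg Subgroup Cfsg.Agent.PGrp
open scoped commutatorElement Pointwise

variable {G : Type*} [Group G]

theorem mcs {x g : G} : x ∈ centralizer ({g} : Set G) ↔ g * x * g⁻¹ = x := by
  rw [mem_centralizer_singleton_iff, mul_inv_eq_iff_eq_mul, eq_comm]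

theorem fix_modEq [Finite G] {q : ℕ} (hq : q.Prime) (S : Set G) {r : G}
    (hS : ∀ x ∈ S, r * x * r⁻¹ ∈ S) (hr : ∀ x ∈ S, r ^ q * x * (r ^ q)⁻¹ = x) :
    S.ncard ≡ (S ∩ centralizer ({r} : Set G)).ncard [MOD q] := by
  classical
  haveI := Fact.mk hq
  letI := Fintype.ofFinite S
  let f : Function.End S := fun x => ⟨r * x * r⁻¹, hS x x.2⟩
  have h1 : ∀ n x, ((f ^ n) x : G) = r ^ n * x * (r ^ n)⁻¹ := fun n => by
    induction n with
    | zero => intro x; simp; rfl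
    | succ n ih =>
      intro x
      rw [pow_succ', show ((f * f ^ n) x : G) = r * (f ^ n) x * r⁻¹ from rfl, ih]; group
  have h2 := Equiv.Perm.card_fixedPoints_modEq (f := f) (p := q) (n := 1)
    (funext fun x => Subtype.ext (by rw [pow_one, h1, hr x x.2]; rfl))
  rw [← Nat.card_eq_fintype_card, ← Nat.card_eq_fintype_card] at h2
  rw [← Nat.card_coe_set_eq, ← Nat.card_coe_set_eq]
  convert h2 using 1
  exact Nat.card_congr
    { toFun := fun x => ⟨⟨x.1, x.2.1⟩, Subtype.ext (mcs.1 x.2.2)⟩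
      invFun := fun x => ⟨x.1.1, x.1.2, mcs.2 (congrArg Subtype.val x.2)⟩
      left_inv := fun _ => rfl
      right_inv := fun _ => rfl }

theorem sub_modEq [Finite G] {q : ℕ} (hq : q.Prime) (V : Subgroup G) {r : G}
    (hS : ∀ x ∈ V, r * x * r⁻¹ ∈ V) (hr : ∀ x ∈ V, r ^ q * x * (r ^ q)⁻¹ = x) :
    Nat.card V ≡ Nat.card (V ⊓ centralizer {r} : Subgroup G) [MOD q] := by
  have := fix_modEq hq (V : Set G) hS hr
  rwa [← Nat.card_coe_set_eq, ← Nat.card_coe_set_eq] at this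

theorem pows [Finite G] {V K : Subgroup G} (hV : IsPGroup 2 V) (h16 : Nat.card V ≤ 16) (hK : K < V) :
    ∃ a b, b < a ∧ a ≤ 4 ∧ Nat.card V = 2 ^ a ∧ Nat.card K = 2 ^ b := by
  obtain ⟨a, ha⟩ := IsPGroup.iff_card.1 hV
  obtain ⟨b, hb⟩ := IsPGroup.iff_card.1 (hV.to_le hK.le)
  refine ⟨a, b, ?_, (Nat.pow_le_pow_iff_right (by norm_num : 1 < 2)).1 (ha ▸ h16), ha, hb⟩
  refine (Nat.pow_lt_pow_iff_right (by norm_num : 1 < 2)).1 ?_
  rw [← ha, ← hb]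
  exact lt_of_le_of_ne (card_le_of_le hK.le) fun e => hK.ne (eq_of_le_of_card_ge hK.le e.ge)

theorem fpf5 [Finite G] {V : Subgroup G} {r : G} (hV : IsPGroup 2 V) (h16 : Nat.card V ≤ 16)
    (hS : ∀ x ∈ V, r * x * r⁻¹ ∈ V) (hr : ∀ x ∈ V, r ^ 5 * x * (r ^ 5)⁻¹ = x)
    (hn : ¬ V ≤ centralizer {r}) : Nat.card V = 16 ∧ ∀ x ∈ V, r * x * r⁻¹ = x → x = 1 := by
  have h1 := sub_modEq (by norm_num : Nat.Prime 5) V hS hr
  obtain ⟨a, b, h2, h3, h4, h5⟩ := pows hV h16 (K := V ⊓ centralizer {r})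
    (lt_of_le_of_ne inf_le_left fun e => hn (e.ge.trans inf_le_right))
  rw [h4, h5] at h1
  have : a = 4 ∧ b = 0 := by
    interval_cases a <;> interval_cases b <;> first | exact ⟨rfl, rfl⟩ | exact absurd h1 (by decide)
  obtain ⟨rfl, rfl⟩ := this
  exact ⟨h4, fun x hx e => mem_bot.1 ((card_eq_one.1 h5).le ⟨hx, mcs.2 e⟩)⟩

/-- The map `u ↦ u * u ^ t` on an abelian subgroup. -/
theorem trace [Finite G] {V : Subgroup G} {t : G} (hc : ∀ a ∈ V, ∀ b ∈ V, a * b = b * a)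
    (h2 : ∀ a ∈ V, a ^ 2 = 1) (hS : ∀ x ∈ V, t * x * t⁻¹ ∈ V)
    (ht : ∀ x ∈ V, t ^ 2 * x * (t ^ 2)⁻¹ = x) :
    ∃ K : Subgroup G, K ≤ V ⊓ centralizer {t} ∧
      Nat.card K * Nat.card (V ⊓ centralizer {t} : Subgroup G) = Nat.card V ∧
      ∀ v ∈ K, ∃ u ∈ V, u * (t * u * t⁻¹) = v := by
  let f : V →* G := MonoidHom.mk' (fun u => u * (t * u * t⁻¹)) fun a b => by
    have := hc b b.2 _ (hS a a.2)
    calc _ = a * (b * (t * a * t⁻¹)) * (t * b * t⁻¹) := by simp only [coe_mul]; group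
      _ = _ := by rw [this]; group
  refine ⟨f.range, ?_, ?_, fun v ⟨u, hu⟩ => ⟨u, u.2, hu⟩⟩
  · rintro _ ⟨u, rfl⟩
    refine ⟨mul_mem u.2 (hS u u.2), mcs.2 ?_⟩
    show t * (u * (t * u * t⁻¹)) * t⁻¹ = u * (t * u * t⁻¹)
    calc _ = t * u * t⁻¹ * (t ^ 2 * u * (t ^ 2)⁻¹) := by rw [pow_two]; group
      _ = _ := by rw [ht u u.2, hc u u.2 _ (hS u u.2)]
  · rw [← index_ker, ← f.ker.index_mul_card, ← card_map_of_injective (K := f.ker) V.subtype_injective]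
    congr 3
    ext x
    constructor
    · rintro ⟨hx, e⟩
      refine ⟨⟨x, hx⟩, ?_, rfl⟩
      show x * (t * x * t⁻¹) = 1
      rw [mcs.1 e, ← pow_two, h2 x hx]
    · rintro ⟨u, hu, rfl⟩
      refine ⟨u.2, mcs.2 ?_⟩
      have h3 : (u : G) * (t * u * t⁻¹) = 1 := hu
      rw [← h2 u u.2, pow_two] at h3
      exact mul_left_cancel h3

theorem mod5 [Finite G] {V : Subgroup G} {r t : G} (hc : ∀ a ∈ V, ∀ b ∈ V, a * b = b * a)
    (h2 : ∀ a ∈ V, a ^ 2 = 1) (h16 : Nat.card V = 16) (hS : ∀ x ∈ V, t * x * t⁻¹ ∈ V)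
    (hR : ∀ x ∈ V, r * x * r⁻¹ ∈ V)
    (hr : ∀ x ∈ V, r ^ 5 * x * (r ^ 5)⁻¹ = x) (ht : ∀ x ∈ V, t ^ 2 * x * (t ^ 2)⁻¹ = x)
    (htr : ∀ x ∈ V, (t * r * t⁻¹ * r) * x * (t * r * t⁻¹ * r)⁻¹ = x)
    (hf : ∀ x ∈ V, r * x * r⁻¹ = x → x = 1) :
    Nat.card (V ⊓ centralizer {t} : Subgroup G) = 4 ∧
      ∀ v ∈ V, t * v * t⁻¹ = v → ∃ u ∈ V, u * (t * u * t⁻¹) = v := by
  obtain ⟨K, k1, k2, k3⟩ := trace hc h2 hS ht
  set C := V ⊓ centralizer {t} with hC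
  have h1 : Nat.card C * Nat.card C ≤ 16 := by
    rw [← h16, ← Nat.card_prod]
    refine Nat.card_le_card_of_injective (fun x : C × C => (⟨x.1 * (r * x.2 * r⁻¹),
      mul_mem x.1.2.1 (hR _ x.2.2.1)⟩ : V)) fun x y e => ?_
    have e1 : (x.1 : G) * (r * x.2 * r⁻¹) = y.1 * (r * y.2 * r⁻¹) := congrArg Subtype.val e
    have e2 : ((y.1⁻¹ * x.1 : C) : G) = r * (y.2 * x.2⁻¹ : C) * r⁻¹ := by
      push_cast
      rw [inv_mul_eq_iff_eq_mul, ← mul_inv_eq_iff_eq_mul.2 e1]; group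
    have e3 : ((y.2 * x.2⁻¹ : C) : G) = 1 := by
      generalize y.2 * x.2⁻¹ = c at e2
      generalize y.1⁻¹ * x.1 = d at e2
      have a1 := mcs.1 c.2.2
      have a2 := mcs.1 d.2.2
      have a3 : r * (r * c * r⁻¹) * r⁻¹ = c := by
        have := htr _ (hR _ c.2.1)
        have a5 : r * (t⁻¹ * (r * (r * c * r⁻¹) * r⁻¹) * t) * r⁻¹ = r * c * r⁻¹ := by
          calc _ = t⁻¹ * (t * r * t⁻¹ * r * (r * c * r⁻¹) * (t * r * t⁻¹ * r)⁻¹) * t := by group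
            _ = t⁻¹ * (t * d * t⁻¹) * t := by rw [this, a2, e2]
            _ = _ := by rw [← e2]; group
        have a6 : t⁻¹ * (r * (r * c * r⁻¹) * r⁻¹) * t = c := by simpa using a5
        calc _ = t * (t⁻¹ * (r * (r * c * r⁻¹) * r⁻¹) * t) * t⁻¹ := by group
          _ = c := by rw [a6, a1]
      refine hf _ c.2.1 ?_
      calc _ = r * (r * (r * (r * (r * c * r⁻¹) * r⁻¹) * r⁻¹) * r⁻¹) * r⁻¹ := by rw [a3, a3]
        _ = r ^ 5 * c * (r ^ 5)⁻¹ := by simp [pow_succ, mul_assoc]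
        _ = c := hr _ c.2.1
    rw [e3, mul_one, mul_inv_cancel] at e2
    exact Prod.ext (inv_mul_eq_one.1 (Subtype.ext e2)).symm (mul_inv_eq_one.1 (Subtype.ext e3)).symm
  have h3 := card_le_of_le k1
  have h4 : Nat.card C = 4 := by nlinarith
  refine ⟨h4, fun v hv e => k3 v ((eq_of_le_of_card_ge k1 ?_).ge ⟨hv, mcs.2 e⟩)⟩
  rw [h4] at k2 ⊢; omega

theorem comm_mem {N K : Subgroup G} (hsq : ∀ x ∈ K, x ^ 2 ∈ N) {x y : G} (hx : x ∈ K) (hy : y ∈ K) :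
    x * y * x⁻¹ * y⁻¹ ∈ N := by
  have := N.mul_mem (N.mul_mem (hsq _ (K.mul_mem hx hy))
    (hsq _ (K.mul_mem (K.mul_mem (K.inv_mem hy) (K.inv_mem hx)) hy))) (hsq _ (K.inv_mem hy))
  convert this using 1
  simp [pow_two, mul_assoc]

theorem sect2 (h : Sect 2 4 G) {N K : Subgroup G} (hN : N ≤ K) (hsq : ∀ x ∈ K, x ^ 2 ∈ N) :
    N.relIndex K ≤ 16 := by
  have k : ∀ x ∈ K, ∀ n ∈ N, x * n * x⁻¹ ∈ N := fun x hx n hn => by
    simpa using N.mul_mem (comm_mem hsq hx (hN hn)) hn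
  refine h N K (fun x hx => mem_normalizer_iff.2 fun n => ⟨k x hx n, fun hn => ?_⟩)
    (commutator_le.2 fun x hx y hy => comm_mem hsq hx hy) hsq
  simpa [mul_assoc] using k _ (K.inv_mem hx) _ hn

theorem tsec [Finite G] (h : Sect 2 4 G) {W S : Subgroup G} {t : G} (hWS : W ≤ S)
    (hW2 : ∀ w ∈ W, w ^ 2 = 1) (hSW : ∀ s ∈ S, ∀ w ∈ W, s * w = w * s) (hS2 : ∀ s ∈ S, s ^ 2 ∈ W)
    (hts : ∀ s ∈ S, s⁻¹ * (t * s * t⁻¹) ∈ W) (ht2 : t ^ 2 ∈ W) (htS : t ∉ S) :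
    (W ⊓ centralizer {t}).relIndex W * W.relIndex S * 2 ≤ 16 := by
  have k1 : ∀ s ∈ S, t * s * t⁻¹ ∈ S := fun s hs => by simpa using S.mul_mem hs (hWS (hts s hs))
  have k2 : ∀ s ∈ S, t⁻¹ * s * t ∈ S := fun s hs => by
    have := S.mul_mem (S.mul_mem (S.inv_mem (hWS ht2)) (k1 s hs)) (hWS ht2)
    simpa [pow_two, mul_assoc] using this
  let H : Subgroup G :=
    { carrier := {x | x ∈ S ∨ x * t⁻¹ ∈ S}
      one_mem' := Or.inl S.one_mem
      mul_mem' := by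
        rintro a b (ha | ha) (hb | hb)
        · exact Or.inl (S.mul_mem ha hb)
        · exact Or.inr (by simpa [mul_assoc] using S.mul_mem ha hb)
        · exact Or.inr (by simpa [mul_assoc] using S.mul_mem ha (k1 b hb))
        · exact Or.inl (by simpa [mul_assoc, pow_two] using S.mul_mem (S.mul_mem ha (k1 _ hb)) (hWS ht2))
      inv_mem' := by
        rintro a (ha | ha)
        · exact Or.inl (S.inv_mem ha)
        · exact Or.inr (by
            simpa [mul_assoc, pow_two] using S.mul_mem (k2 _ (S.inv_mem ha)) (S.inv_mem (hWS ht2))) }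
  have hSH : S ≤ H := fun x hx => Or.inl hx
  have h1 := sect2 h (N := W ⊓ centralizer {t}) (K := H) (inf_le_left.trans (hWS.trans hSH)) (by
    rintro x (hx | hx)
    · refine ⟨hS2 x hx, mcs.2 ?_⟩
      have e := hts x hx
      generalize hw : x⁻¹ * (t * x * t⁻¹) = w at e
      have e2 : t * x * t⁻¹ = x * w := by rw [← hw]; group
      calc _ = (t * x * t⁻¹) * (t * x * t⁻¹) := by rw [pow_two]; group
        _ = x * (w * x) * w := by rw [e2]; group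
        _ = x ^ 2 * w ^ 2 := by rw [← hSW x hx w e, pow_two, pow_two]; group
        _ = _ := by rw [hW2 w e, mul_one]
    · generalize hs : x * t⁻¹ = s at hx
      obtain rfl : x = s * t := by rw [← hs]; group
      have e : (s * t) ^ 2 ∈ W := by
        have := W.mul_mem (W.mul_mem (hS2 s hx) (hts s hx)) ht2
        convert this using 1
        simp [pow_two, mul_assoc]
      refine ⟨e, mcs.2 ?_⟩
      calc _ = s⁻¹ * ((s * t) ^ 2 * s) * (t * t⁻¹) := by simp [pow_two, mul_assoc]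
        _ = _ := by rw [← hSW s hx _ e]; group)
  rw [← relIndex_mul_relIndex _ W H inf_le_left (hWS.trans hSH), ← relIndex_mul_relIndex W S H hWS hSH,
    ← mul_assoc] at h1
  refine le_trans (Nat.mul_le_mul_left _ ?_) h1
  have h2 : S.relIndex H ≠ 1 := fun e => htS (relIndex_eq_one.1 e (Or.inr (by simpa using S.one_mem)))
  have h3 : S.relIndex H ≠ 0 := FiniteIndex.index_ne_zero
  omega

theorem exists_central [Finite G] {Q W : Subgroup G} [Q.Normal] [W.Normal] (hQ : IsPGroup 2 Q)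
    (hW : W ≤ Q) (h : W ≠ ⊥) : ∃ U : Subgroup G, U.Normal ∧ U ≠ ⊥ ∧
      ∀ x, x ∈ U ↔ x ∈ W ∧ x ^ 2 = 1 ∧ ∀ q ∈ Q, q * x = x * q := by
  let U : Subgroup G :=
    { carrier := {x | x ∈ W ∧ x ^ 2 = 1 ∧ ∀ q ∈ Q, q * x = x * q}
      one_mem' := ⟨W.one_mem, one_pow 2, fun q _ => by simp⟩
      mul_mem' := fun {a b} ha hb => ⟨W.mul_mem ha.1 hb.1, by
        rw [Commute.mul_pow (hb.2.2 a (hW ha.1)), ha.2.1, hb.2.1, mul_one], fun q hq => by
        rw [← mul_assoc, ha.2.2 q hq, mul_assoc, hb.2.2 q hq, mul_assoc]⟩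
      inv_mem' := fun {a} ha => ⟨W.inv_mem ha.1, by rw [inv_pow, ha.2.1, inv_one], fun q hq =>
        (Commute.inv_right (ha.2.2 q hq) :)⟩ }
  refine ⟨U, ⟨fun x hx g => ⟨Normal.conj_mem ‹_› x hx.1 g, by rw [conj_pow, hx.2.1]; simp,
    fun q hq => ?_⟩⟩, ?_, fun x => Iff.rfl⟩
  · calc _ = g * (g⁻¹ * q * g⁻¹⁻¹ * x) * g⁻¹ := by group
      _ = _ := by rw [hx.2.2 _ (Normal.conj_mem ‹_› q hq g⁻¹)]; group
  · have h1 := Core.inf_centralizer_ne_bot_of_isPGroup (hQ.to_le hW) hQ le_normalizer_of_normal h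
    obtain ⟨x, hx⟩ := exists_prime_orderOf_dvd_card' (G := (W ⊓ centralizer (Q : Set G) : Subgroup G)) 2
      ((hQ.to_le (inf_le_left.trans hW)).card_eq_or_dvd.resolve_left (mt card_eq_one.1 h1))
    rw [← orderOf_coe] at hx
    refine fun e => ?_
    have h2 := mem_bot.1 (e.le (show (x : G) ∈ U from ⟨x.2.1, hx ▸ pow_orderOf_eq_one _, x.2.2⟩))
    rw [h2, orderOf_one] at hx
    omega

theorem conj_pow_eq {g x u : G} (e : g * x * g⁻¹ = x * u) (h : g * u * g⁻¹ = u) (n : ℕ) :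
    g ^ n * x * (g ^ n)⁻¹ = x * u ^ n := by
  induction n with
  | zero => simp
  | succ n ih =>
    calc _ = g * (g ^ n * x * (g ^ n)⁻¹) * g⁻¹ := by rw [pow_succ']; group
      _ = (g * x * g⁻¹) * (g * u * g⁻¹) ^ n := by rw [ih, conj_pow]; group
      _ = _ := by rw [e, h, pow_succ']; group

theorem card_ext [Finite G] {U : Subgroup G} {w : G} (hw : w ∉ U) (hc : ∀ u ∈ U, w * u = u * w)
    (hU : ∀ a ∈ U, ∀ b ∈ U, a * b = b * a) (h2 : ∀ a ∈ U, a ^ 2 = 1) (hw2 : w ^ 2 = 1)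
    (h : Sect 2 4 G) : Nat.card U * 2 ≤ 16 := by
  have := tsec h (W := ⊥) (S := U) (t := w) bot_le (by simp) (by simp) (by simpa using h2)
    (fun s hs => by rw [hc s hs]; simp) (by simpa using hw2) hw
  simpa using this

theorem cent5 (n : ℕ) : ∀ (X : Type*) [Group X] [Finite X], Nat.card X = n → Sect 2 4 X →
    ∀ (Q W : Subgroup X) [Q.Normal] [W.Normal] (r t : X), IsPGroup 2 Q → W ≤ Q → (∀ x ∈ Q, x ^ 2 ∈ W) →
    r ^ 5 = 1 → t ^ 2 ∈ Q → t * r * t⁻¹ * r ∈ Q → (∃ x ∈ Q, x⁻¹ * (r * x * r⁻¹) ∉ W) →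
    ∀ w ∈ W, r * w * r⁻¹ = w := by
  induction n using Nat.strong_induction_on with
  | _ n ih =>
  intro X _ _ hn h Q W nQ nW r t hQ hW hsq hr ht htr hx
  by_cases h0 : W = ⊥
  · simp [h0]
  obtain ⟨U, nU, hU0, hU⟩ := exists_central hQ hW h0
  have hUW : U ≤ W := fun x hx => ((hU x).1 hx).1
  have hU2 : ∀ x ∈ U, x ^ 2 = 1 := fun x hx => ((hU x).1 hx).2.1
  have hUQ : ∀ q ∈ Q, ∀ x ∈ U, q * x = x * q := fun q hq x hx => ((hU x).1 hx).2.2 q hq
  have hUQ' : ∀ q ∈ Q, ∀ x ∈ U, q * x * q⁻¹ = x := fun q hq x hx => by rw [hUQ q hq x hx]; group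
  have hUU : ∀ q ∈ U, ∀ x ∈ U, q * x = x * q := fun q hq => hUQ q (hW (hUW hq))
  let π := QuotientGroup.mk' U
  have hπ := QuotientGroup.mk'_surjective U
  have mπ : ∀ (K : Subgroup X), U ≤ K → ∀ x, π x ∈ K.map π ↔ x ∈ K := fun K hK x => by
    rw [← mem_comap, comap_map_eq_self (by rwa [QuotientGroup.ker_mk'])]
  haveI := nQ.map π hπ
  haveI := nW.map π hπ
  have h1 : ∀ w ∈ W, w⁻¹ * (r * w * r⁻¹) ∈ U := fun w hw => by
    have := ih _ (hn ▸ (U.card_mul_index ▸ lt_mul_left FiniteIndex.index_ne_zero.bot_lt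
      ((one_lt_card_iff_ne_bot U).2 hU0))) (X ⧸ U) rfl (h.quotient U) (Q.map π) (W.map π) (π r) (π t)
      (hQ.map π) (map_mono hW) (by rintro _ ⟨x, hx, rfl⟩; exact ⟨_, hsq x hx, map_pow ..⟩)
      (by rw [← map_pow, hr, map_one]) ⟨_, ht, map_pow ..⟩ ⟨_, htr, by simp⟩ (by
        obtain ⟨x, h1, h2⟩ := hx
        exact ⟨π x, ⟨x, h1, rfl⟩, fun e => h2 ((mπ W hUW _).1 (by simpa using e))⟩) (π w) ⟨w, hw, rfl⟩
    exact QuotientGroup.eq.1 this.symm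
  by_cases h2 : U ≤ centralizer {r}
  · intro w hw
    have e := h1 w hw
    generalize hu : w⁻¹ * (r * w * r⁻¹) = u at e
    have e2 : r * w * r⁻¹ = w * u := by rw [← hu]; group
    have e3 := conj_pow_eq e2 (mcs.1 (h2 e)) 5
    rw [hr, show u ^ 5 = (u ^ 2) ^ 2 * u by group, hU2 u e] at e3
    rw [e2]; simpa using e3.symm
  exfalso
  have c1 : Nat.card U ≤ 16 := by simpa using sect2 h (N := ⊥) (K := U) bot_le (by simpa using hU2)
  obtain ⟨c2, c3⟩ := fpf5 (hQ.to_le (hUW.trans hW)) c1 (fun x hx => nU.conj_mem x hx r)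
    (by simp [hr]) h2
  obtain rfl : U = W := by
    by_contra h3
    obtain ⟨w, a1, a2, a3, -⟩ := exists_of_prime_dvd_relIndex (A := W) (B := U) Nat.prime_two
      (((hQ.to_le hW).to_quotient (U.subgroupOf W)).card_eq_or_dvd.resolve_left fun e =>
        h3 (le_antisymm hUW (relIndex_eq_one.1 e)))
    have := card_ext a2 (hUQ w (hW a1)) hUU hU2 (c3 _ a3 (by
      have e := h1 w a1
      generalize hu : w⁻¹ * (r * w * r⁻¹) = u at e
      have e2 : r * w * r⁻¹ = w * u := by rw [← hu]; group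
      rw [← conj_pow, e2, Commute.mul_pow (hUQ w (hW a1) u e), hU2 u e, mul_one])) h
    omega
  obtain ⟨c4, -⟩ := mod5 hUU hU2 c2 (fun x hx => nU.conj_mem x hx t) (fun x hx => nU.conj_mem x hx r)
    (by simp [hr]) (hUQ' _ ht) (hUQ' _ htr) c3
  set V := Q.map π with hV
  have v2 : ∀ a ∈ V, a ^ 2 = 1 := by
    rintro _ ⟨x, hx, rfl⟩; rw [← map_pow]; exact (QuotientGroup.eq_one_iff _).2 (hsq x hx)
  have vc : ∀ a ∈ V, ∀ b ∈ V, a * b = b * a := fun a ha b hb => by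
    have := comm_mem (N := ⊥) (K := V) (by simpa using v2) ha hb
    rwa [mem_bot, mul_inv_eq_one, mul_inv_eq_iff_eq_mul] at this
  have vc' : ∀ q ∈ Q, ∀ b ∈ V, π q * b * (π q)⁻¹ = b := fun q hq b hb => by
    rw [vc _ ⟨q, hq, rfl⟩ b hb]; group
  have nV : V.Normal := inferInstance
  have r5 : ∀ x ∈ V, π r ^ 5 * x * (π r ^ 5)⁻¹ = x := by simp [← map_pow, hr]
  obtain ⟨d2, d3⟩ := fpf5 (V := V) (hQ.map π) (by
      simpa using sect2 (h.quotient U) (N := ⊥) (K := V) bot_le (by simpa using v2))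
    (fun x hx => nV.conj_mem x hx (π r)) r5 fun e => by
      obtain ⟨x, h1, h2⟩ := hx
      exact h2 (QuotientGroup.eq.1 (mcs.1 (e ⟨x, h1, rfl⟩)).symm)
  obtain ⟨d4, d5⟩ := mod5 vc v2 d2 (fun x hx => nV.conj_mem x hx (π t))
    (fun x hx => nV.conj_mem x hx (π r)) r5 (by simpa using vc' _ ht) (by simpa using vc' _ htr) d3
  obtain ⟨_, ⟨u, hu, rfl⟩, e⟩ := d5 (π t ^ 2) ⟨_, ht, map_pow ..⟩ (by group)
  have e1 : centralizer {π (u⁻¹ * t)} ⊓ V = V ⊓ centralizer {π t} := by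
    ext x
    simp only [mem_inf, mcs, map_mul, map_inv, and_comm (b := x ∈ V)]
    refine and_congr_right fun hx => ?_
    rw [← map_inv, show π u⁻¹ * π t * x * (π u⁻¹ * π t)⁻¹ = π u⁻¹ * (π t * x * (π t)⁻¹) * (π u⁻¹)⁻¹ by
      group, vc' _ (Q.inv_mem hu) _ (nV.conj_mem x hx _)]
  have e2 : U ⊓ centralizer {u⁻¹ * t} = U ⊓ centralizer {t} := by
    ext x
    simp only [mem_inf, mcs]
    refine and_congr_right fun hx => ?_
    rw [show u⁻¹ * t * x * (u⁻¹ * t)⁻¹ = u⁻¹ * (t * x * t⁻¹) * u⁻¹⁻¹ by group,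
      hUQ' _ (Q.inv_mem hu) _ (nU.conj_mem x hx _)]
  have h5 := tsec h (W := U) (S := (centralizer {π (u⁻¹ * t)}).comap π ⊓ Q) (t := u⁻¹ * t)
    (fun x hx => ⟨mcs.2 (by rw [show π x = 1 from (QuotientGroup.eq_one_iff _).2 hx]; simp), hW hx⟩) hU2
    (fun s hs => hUQ s hs.2) (fun s hs => hsq s hs.2)
    (fun s hs => QuotientGroup.eq.1 (mcs.1 hs.1).symm) (by
      rw [← QuotientGroup.eq_one_iff]
      show π _ = 1
      rw [map_pow, map_mul, map_inv]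
      calc _ = (π t * π u * (π t)⁻¹ * π u)⁻¹ * π t ^ 2 := by simp [pow_two, mul_assoc]
        _ = 1 := by rw [vc _ (nV.conj_mem _ ⟨u, hu, rfl⟩ _) _ ⟨u, hu, rfl⟩, e, inv_mul_cancel])
    fun e => by
      rw [← e2, inf_eq_left.2 fun x hx => mcs.2 (hUQ' _ e.2 x hx)] at c4
      omega
  have e3 : U.relIndex ((centralizer {π (u⁻¹ * t)}).comap π ⊓ Q) = 4 := by
    rw [← d4, ← e1]
    refine (congrArg (relIndex · _) (QuotientGroup.ker_mk' U).symm).trans ((relIndex_ker ..).trans ?_)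
    congr 3
    ext x
    exact ⟨by rintro ⟨y, hy, rfl⟩; exact ⟨hy.1, y, hy.2, rfl⟩,
      by rintro ⟨h1, y, hy, rfl⟩; exact ⟨y, ⟨h1, hy⟩, rfl⟩⟩
  have e4 := (U ⊓ centralizer {t}).subgroupOf U |>.card_mul_index
  rw [Nat.card_congr (subgroupOfEquivOfLe inf_le_left).toEquiv, c4, c2] at e4
  rw [e2, e3, relIndex] at h5
  omega

end Cfsg.Agent.GH4
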