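import Mathlib
import Cfsg.Agent.GH4.A
import Cfsg.Agent.S4416
import Cfsg.Agent.S0206

/-! Two-constrained groups of sectional rank four: class two radicals. -/

set_option autoImplicit false

namespace Cfsg.Agent.GH4

open Cfsg Subgroup Cfsg.Agent.PGrp
open scoped commutatorElement Pointwise

variable {G : Type*} [Group G]

theorem eight' [Finite G] (h8 : Nat.card G = 8) (hna : ¬ IsMulCommutative G) :
    Nonempty (G ≃* DihedralGroup 4) ∨ Nonempty (G ≃* QuaternionGroup 2) := by
  have hp : IsPGroup 2 G := IsPGroup.of_card (n := 3) h8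
  obtain ⟨a, ha⟩ := PGrp.exists_orderOf_four_of_card_eight h8 hna
  have hi : (zpowers a).index = 2 := by
    have := (zpowers a).card_mul_index
    rw [Nat.card_zpowers, ha, h8] at this
    omega
  obtain ⟨b, m, -, h | ⟨h1, h2, -⟩⟩ := PGrp.mc_or_modular_of_index_two hp hi hna
  · have h1 := PGrp.mc_card h
    rw [h8] at h1
    obtain rfl : m = 1 := by
      have := Nat.pow_right_injective (le_refl 2) (show 2 ^ 3 = 2 ^ (m + 2) from h1)
      omega
    rcases PGrp.mc_cases h with h | ⟨h, -⟩ | h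
    · exact Or.inl h
    · omega
    · exact Or.inr h
  · rw [ha] at h2
    have := Nat.pow_right_injective (le_refl 2) (show 2 ^ 2 = 2 ^ (m + 1) from h2)
    omega

theorem minus32 [Finite G] (h32 : Nat.card G = 32) {z : G} (hz : z ≠ 1)
    (hc : ∀ x, x ∈ center G ↔ x = 1 ∨ x = z) (hsq : ∀ x : G, x ^ 2 ∈ center G)
    (hI : ({x : G | x ^ 2 = 1}).ncard % 5 = 2) {x : G} (hx : x ∉ center G) (hx2 : x ^ 2 = 1) :
    ∃ A B : Subgroup G, Nonempty (A ≃* QuaternionGroup 2) ∧ Nonempty (B ≃* DihedralGroup 4) ∧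
      (∀ a ∈ A, ∀ b ∈ B, a * b = b * a) ∧ A ⊔ B = ⊤ ∧ A ⊓ B = center G := by
  have hG : IsPGroup 2 G := IsPGroup.of_card (n := 5) h32
  have zc : ∀ g, g * z = z * g := mem_center_iff.1 ((hc z).2 (Or.inr rfl))
  have z2 : z * z = 1 := ((hc _).1 (hsq z)).elim (fun h => by rwa [← pow_two]) fun h =>
    absurd (mul_left_cancel (a := z) (by rw [← pow_two, h, mul_one])) hz
  have cm : ∀ a b : G, a * b = b * a ∨ a * b = z * (b * a) := fun a b =>
    ((hc _).1 (comm_mem (K := ⊤) (fun x _ => hsq x) (mem_top a) (mem_top b))).imp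
      (fun h => by rwa [mul_inv_eq_one, mul_inv_eq_iff_eq_mul] at h) fun h => by rw [← h]; group
  have sq : ∀ a b : G, a * b ≠ b * a → (a * b) ^ 2 = z * (a ^ 2 * b ^ 2) := fun a b h => by
    have := (cm b a).resolve_left (Ne.symm h)
    calc _ = a * (b * a) * b := by rw [pow_two]; group
      _ = _ := by rw [this, ← mul_assoc, zc a, pow_two, pow_two]; group
  obtain ⟨y, hy, hy2⟩ : ∃ y, x * y ≠ y * x ∧ y ^ 2 = 1 := by
    obtain ⟨y, hy⟩ := not_forall.1 (mt mem_center_iff.2 hx)
    rcases (hc _).1 (hsq y) with h | h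
    · exact ⟨y, Ne.symm hy, h⟩
    · exact ⟨x * y, fun e => hy (mul_left_cancel (e.trans (mul_assoc ..))).symm, by
        rw [sq _ _ (Ne.symm hy), hx2, h, one_mul, z2]⟩
  have ci : ∀ a b : G, a * b ≠ b * a → (centralizer {a}).index = 2 := fun a b h =>
    index_eq_two_iff.2 ⟨b, fun g => by
      simp only [mem_centralizer_singleton_iff]
      have h1 := (cm b a).resolve_left (Ne.symm h)
      by_cases h2 : g * a = a * g
      · exact Or.inr ⟨h2, fun e => h (mul_left_cancel (a := g) (by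
          rw [← mul_assoc, ← mul_assoc, e, h2, mul_assoc]))⟩
      · refine Or.inl ⟨?_, h2⟩
        rw [mul_assoc, h1, ← mul_assoc, zc g, mul_assoc, ← mul_assoc g, (cm g a).resolve_left h2,
          ← mul_assoc, ← mul_assoc, z2, one_mul, mul_assoc]⟩
  have hcc : Nat.card (center G) = 2 := by
    rw [show center G = zpowers z from le_antisymm (fun g hg => ((hc g).1 hg).elim
      (fun e => e ▸ one_mem _) fun e => e ▸ mem_zpowers _) (zpowers_le.2 (mem_center_iff.2 zc)),
      Nat.card_zpowers, orderOf_eq_prime (by rw [pow_two, z2]) hz]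
  have hcm : commutator G = center G := le_antisymm (commutator_le.2 fun a _ b _ =>
    comm_mem (K := ⊤) (fun x _ => hsq x) (mem_top a) (mem_top b)) fun g hg => by
      rcases (hc g).1 hg with rfl | rfl
      · exact one_mem _
      · convert commutatorElement_mem_commutator x y using 1
        rw [commutatorElement_def, (cm x y).resolve_left hy]; group
  obtain ⟨⟨m, -, h1, h2⟩, -⟩ := S4416.result.{_, 0} G ⟨⟨hG, le_antisymm ((frattini_le_iff hG).2
    ⟨hcm.le, hsq⟩) (hcm.ge.trans (commutator_le_frattini hG)), hcm⟩, hcc⟩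
  obtain rfl : m = 2 := by
    have := Nat.pow_right_injective (le_refl 2) (show 2 ^ 5 = 2 ^ (2 * m + 1) from h32.symm.trans h1)
    omega
  set I := {x : G | x ^ 2 = 1} with hI'
  rw [show Nat.card {x : G // x ^ 2 = 1} = I.ncard from Nat.card_coe_set_eq I] at h2
  set C : Set G := ((centralizer {x} : Subgroup G) : Set G) with hC
  have c1 : C.ncard = 16 := by
    have := (centralizer {x}).card_mul_index
    rw [ci x y hy, h32] at this
    rw [← Nat.card_coe_set_eq]
    show Nat.card (centralizer {x}) = 16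
    omega
  have c2 := Set.ncard_add_ncard_compl C
  have c3 := Set.ncard_inter_add_ncard_sdiff_eq_ncard Cᶜ I
  have c4 := Set.ncard_inter_add_ncard_sdiff_eq_ncard I C
  have c5 : (Cᶜ \ I).ncard ≤ (I \ C).ncard := Set.ncard_le_ncard_of_injOn (fun g => g * x)
    (fun g hg => by
      have h3 : g * x ≠ x * g := mt mem_centralizer_singleton_iff.2 hg.1
      refine ⟨?_, fun e => h3 (mul_right_cancel (mem_centralizer_singleton_iff.1 e |>.trans
        (mul_assoc ..).symm))⟩
      show (g * x) ^ 2 = 1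
      rw [sq _ _ h3, hx2, ((hc _).1 (hsq g)).resolve_left hg.2, mul_one, z2])
    (mul_left_injective x).injOn
  rw [Set.inter_comm, ← Set.sdiff_eq] at c3
  have inv : ∀ a, a * x = x * a → a * y = y * a → a ^ 2 = 1 → a ∈ center G := fun a a1 a2 a3 => by
    by_contra a4
    rw [hc, not_or] at a4 hx
    have c6 : ({a, x * z, x, z, 1} : Set G).ncard ≤ (I ∩ C).ncard := Set.ncard_le_ncard (by
      rintro g (rfl | rfl | rfl | rfl | rfl)
      · exact ⟨a3, mem_centralizer_singleton_iff.2 a1⟩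
      · exact ⟨show _ = 1 by rw [Commute.mul_pow (zc x), hx2, pow_two, z2, mul_one],
          mem_centralizer_singleton_iff.2 (by rw [mul_assoc, zc x])⟩
      · exact ⟨hx2, mem_centralizer_singleton_iff.2 rfl⟩
      · exact ⟨show _ = 1 by rw [pow_two, z2], mem_centralizer_singleton_iff.2 (zc x).symm⟩
      · exact ⟨one_pow 2, one_mem _⟩)
    have n1 : a ≠ x := fun e => hy (e ▸ a2)
    have n2 : a ≠ x * z := fun e => hy (mul_right_cancel (b := z) (by
      rw [e, mul_assoc, ← zc y] at a2; simpa only [mul_assoc] using a2))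
    have n3 : x * z ≠ 1 := fun e => hx.2 (mul_right_cancel (e.trans z2.symm))
    rw [Set.ncard_insert_of_notMem (by simp [n1, n2, a4]), Set.ncard_insert_of_notMem (by
      simp [n3, hx, hz]), Set.ncard_insert_of_notMem (by simp [hx]), Set.ncard_pair hz] at c6
    omega
  have hx1 : x ≠ 1 := fun e => hx (e ▸ one_mem _)
  have o4 : orderOf (x * y) = 4 := by
    have e : (x * y) ^ 2 = z := by rw [sq _ _ hy, hx2, hy2, mul_one, mul_one]
    exact orderOf_eq_prime_pow (p := 2) (n := 1) (by rwa [pow_one, e])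
      (by rw [pow_two 2, pow_mul, e, pow_two, z2])
  obtain ⟨e⟩ := o4 ▸ S0206.result x y (orderOf_eq_prime hx2 hx1)
    (orderOf_eq_prime hy2 fun e => hy (by simp [e])) fun e => hy (by rw [e])
  set B := closure ({x, y} : Set G) with hB
  set A := centralizer {x} ⊓ centralizer {y} with hA
  have hAB : ∀ a ∈ A, ∀ b ∈ B, a * b = b * a := fun a ha b hb => by
    have : B ≤ centralizer {a} := (closure_le _).2 (by
      rintro g (rfl | rfl)
      exacts [mem_centralizer_singleton_iff.2 (mem_centralizer_singleton_iff.1 ha.1).symm,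
        mem_centralizer_singleton_iff.2 (mem_centralizer_singleton_iff.1 ha.2).symm])
    exact (mem_centralizer_singleton_iff.1 (this hb)).symm
  have iA : ∀ a ∈ A, a ^ 2 = 1 → a ∈ center G := fun a ha =>
    inv a (mem_centralizer_singleton_iff.1 ha.1) (mem_centralizer_singleton_iff.1 ha.2)
  have hI : A ⊓ B = center G := by
    refine le_antisymm (fun g hg => iA g hg.1 ?_) (le_inf (le_inf (center_le_centralizer _)
      (center_le_centralizer _)) ?_)
    · have k : ∀ g : DihedralGroup 4, (∀ h, g * h = h * g) → g ^ 2 = 1 := by decide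
      have := k (e ⟨g, hg.2⟩) fun h => by
        obtain ⟨h, rfl⟩ := e.surjective h
        rw [← map_mul, ← map_mul]
        exact congrArg e (Subtype.ext (hAB g hg.1 h h.2))
      rw [← map_pow, map_eq_one_iff _ e.injective] at this
      exact congrArg Subtype.val this
    · intro g hg
      rcases (hc g).1 hg with rfl | rfl
      · exact one_mem _
      · have hx' : x ∈ B := subset_closure (by simp)
        have hy' : y ∈ B := subset_closure (by simp)
        convert B.pow_mem (B.mul_mem hx' hy') 2 using 1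
        rw [sq _ _ hy, hx2, hy2, mul_one, mul_one]
  have d1 := Core.card_sup_mul_card_inf (N := A) (H := B) fun b hb => centralizer_le_normalizer _
    (mem_centralizer_iff.2 fun a ha => hAB a ha b hb)
  have d2 : A.index ≤ 4 := by
    have := index_inf_le (H := centralizer {x}) (K := centralizer {y})
    rwa [ci x y hy, ci y x (Ne.symm hy)] at this
  have d3 := A.card_mul_index
  have d4 := card_le_card_group (A ⊔ B)
  rw [hI, hcc, Nat.card_congr e.toEquiv, DihedralGroup.nat_card] at d1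
  have d5 : Nat.card A = 8 := by nlinarith
  have d6 : A ⊔ B = ⊤ := eq_top_of_card_eq _ (by omega)
  have d7 : ¬ IsMulCommutative A := fun h => by
    have : A ≤ center G := fun a ha => mem_center_iff.2 fun g => by
      have : A ⊔ B ≤ centralizer {a} := sup_le (fun b hb => mem_centralizer_singleton_iff.2
        (isMulCommutative_iff_forall.1 h b hb a ha)) fun b hb =>
        mem_centralizer_singleton_iff.2 (hAB a ha b hb).symm
      exact mem_centralizer_singleton_iff.1 (this (d6 ▸ mem_top g))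
    have := card_le_of_le this
    omega
  refine ⟨A, B, (eight' d5 d7).resolve_left fun ⟨f⟩ => ?_, ⟨e⟩, hAB, d6, hI⟩
  have k : ∀ g : A, f g ^ 2 = 1 → ∀ h, f h * f g = f g * f h := fun g hg h => by
    rw [← map_pow, map_eq_one_iff _ f.injective] at hg
    rw [← map_mul, ← map_mul]
    exact congrArg f (Subtype.ext (mem_center_iff.1 (iA g g.2 (congrArg Subtype.val hg)) h))
  have := k (f.symm (.sr 0)) (by simp; decide) (f.symm (.r 1))
  simp only [MulEquiv.apply_symm_apply] at this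
  exact absurd this (by decide)

theorem aut_modEq [Finite G] {q : ℕ} (hq : q.Prime) (S : Set G) {ρ : MulAut G}
    (hS : ∀ x ∈ S, ρ x ∈ S) (hr : ρ ^ q = 1) : S.ncard ≡ (S ∩ {x | ρ x = x}).ncard [MOD q] := by
  classical
  haveI := Fact.mk hq
  letI := Fintype.ofFinite S
  let f : Function.End S := fun x => ⟨ρ x, hS x x.2⟩
  have h1 : ∀ n x, ((f ^ n) x : G) = (ρ ^ n) x := fun n => by
    induction n with
    | zero => intro x; rfl
    | succ n ih =>
      intro x
      rw [pow_succ', show ((f * f ^ n) x : G) = ρ ((f ^ n) x) from rfl, ih, pow_succ']; rfl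
  have h2 := Equiv.Perm.card_fixedPoints_modEq (f := f) (p := q) (n := 1)
    (funext fun x => Subtype.ext (by rw [pow_one, h1, hr]; rfl))
  rw [← Nat.card_eq_fintype_card, ← Nat.card_eq_fintype_card] at h2
  rw [← Nat.card_coe_set_eq, ← Nat.card_coe_set_eq]
  convert h2 using 1
  exact Nat.card_congr
    { toFun := fun x => ⟨⟨x.1, x.2.1⟩, Subtype.ext x.2.2⟩
      invFun := fun x => ⟨x.1.1, x.1.2, congrArg Subtype.val x.2⟩
      left_inv := fun _ => rfl
      right_inv := fun _ => rfl }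

theorem sq_mul (x y : G) : (x * y) ^ 2 = x ^ 2 * (x⁻¹ * y * x * y⁻¹) * y ^ 2 := by
  simp [pow_two, mul_assoc]

section
variable [Finite G] (hG : IsPGroup 2 G) {ρ : MulAut G}
include hG

theorem frat_le {N : Subgroup G} (h : ∀ x : G, x ^ 2 ∈ N) : frattini G ≤ N :=
  (frattini_le_iff hG).2 ⟨commutator_le.2 fun a _ b _ =>
    comm_mem (K := ⊤) (fun x _ => h x) (mem_top a) (mem_top b), h⟩

theorem k_mem (x y : G) : x⁻¹ * y * x * y⁻¹ ∈ frattini G := by
  simpa [commutatorElement_def] using commutatorElement_mem_frattini hG x⁻¹ y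

theorem gen_top (hf : ∀ x, x⁻¹ * ρ x ∈ frattini G → x ∈ frattini G) {K : Subgroup G}
    (h : ∀ y, y⁻¹ * ρ y ∈ K) : K = ⊤ := by
  have hc := Normal.quotient_commutative_iff_commutator_le.mpr (commutator_le_frattini hG)
  have h1 : Function.Injective fun v : G ⧸ frattini G => v⁻¹ * autQuot _ ρ v := fun a b e => by
    obtain ⟨a, rfl⟩ := QuotientGroup.mk_surjective a
    obtain ⟨b, rfl⟩ := QuotientGroup.mk_surjective b
    have e' : (a : G ⧸ frattini G)⁻¹ * (ρ a : G) = (b : G ⧸ frattini G)⁻¹ * (ρ b : G) := e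
    refine QuotientGroup.eq.2 (hf _ (QuotientGroup.eq.1 ?_))
    simp only [map_mul, map_inv, QuotientGroup.mk_mul, QuotientGroup.mk_inv]
    rw [inv_mul_eq_iff_eq_mul] at e'
    rw [e', ← mul_assoc, mul_inv_rev, mul_assoc, hc.1.1 _ (ρ b : G ⧸ frattini G)]
    simp [hc.1.1 (b : G ⧸ frattini G)]
  refine frattini_nongenerating (eq_top_iff.2 fun x _ => ?_)
  obtain ⟨v, hv⟩ := Finite.surjective_of_injective h1 x
  obtain ⟨y, rfl⟩ := QuotientGroup.mk_surjective v
  have e : ((y⁻¹ * ρ y : G) : G ⧸ frattini G) = x := hv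
  simpa [mul_assoc] using mul_mem (mem_sup_left (h y)) (mem_sup_right (QuotientGroup.eq.1 e))

theorem class_two (hf : ∀ x, x⁻¹ * ρ x ∈ frattini G → x ∈ frattini G)
    (h : ∀ w ∈ frattini G, ρ w = w) : ∀ w ∈ frattini G, w ∈ center G ∧ w ^ 2 = 1 := by
  have h1 : ∀ w ∈ frattini G, ∀ g, g * w = w * g := fun w hw g =>
    mem_centralizer_singleton_iff.1 ((gen_top hG hf (K := centralizer {w}) fun y => mcs.2 (by
      have := h _ (Normal.conj_mem inferInstance w hw y)
      simp only [map_mul, map_inv, h w hw] at this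
      calc _ = y⁻¹ * (y * w * y⁻¹) * ρ y * w⁻¹ := by group
        _ = _ := by rw [← this]; group)).ge (mem_top g))
  have h2 : ∀ x y : G, (x * y) ^ 4 = x ^ 4 * y ^ 4 := fun x y => by
    have a1 := h1 _ (k_mem hG x y)
    have a2 := h1 _ (pow_mem_frattini hG x)
    have a3 : (x⁻¹ * y * x * y⁻¹) ^ 2 = 1 := by
      calc _ = x⁻¹ * (y * x * y⁻¹ * (x⁻¹ * y * x * y⁻¹)) := by rw [pow_two]; group
        _ = x⁻¹ * (x * (x⁻¹ * y * x * y⁻¹) * (x⁻¹ * y * x * y⁻¹)) := by group
        _ = x⁻¹ * ((x⁻¹ * y * x * y⁻¹) * x * (x⁻¹ * y * x * y⁻¹)) := by rw [a1 x]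
        _ = (x ^ 2)⁻¹ * (y * x * y⁻¹ * y * x * y⁻¹) := by rw [pow_two]; group
        _ = (x ^ 2)⁻¹ * (y * x ^ 2) * y⁻¹ := by rw [pow_two]; group
        _ = 1 := by rw [a2 y]; group
    rw [show 4 = 2 * 2 from rfl, pow_mul, pow_mul, pow_mul, sq_mul,
      Commute.mul_pow (h1 _ (pow_mem_frattini hG y) _), Commute.mul_pow (a1 _), a3, mul_one]
  let K : Subgroup G :=
    { carrier := {x | x ^ 4 = 1}
      one_mem' := one_pow 4
      mul_mem' := fun {a b} (ha : _ = _) (hb : _ = _) => show _ = _ by rw [h2, ha, hb, mul_one]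
      inv_mem' := fun {a} (ha : _ = _) => show _ = _ by rw [inv_pow, ha, inv_one] }
  have h3 : K = ⊤ := gen_top hG hf fun y => show _ = _ by
    rw [h2, ← map_pow, show y ^ 4 = (y ^ 2) ^ 2 by group, h _ (pow_mem_frattini hG _)]; group
  let N : Subgroup G :=
    { carrier := {x | x ∈ center G ∧ x ^ 2 = 1}
      one_mem' := ⟨one_mem _, one_pow 2⟩
      mul_mem' := fun {a b} ha hb => ⟨mul_mem ha.1 hb.1, by
        rw [Commute.mul_pow (mem_center_iff.1 hb.1 a), ha.2, hb.2, mul_one]⟩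
      inv_mem' := fun {a} ha => ⟨inv_mem ha.1, by rw [inv_pow, ha.2, inv_one]⟩ }
  exact frat_le hG (N := N) fun x => ⟨mem_center_iff.2 (h1 _ (pow_mem_frattini hG x)), by
    rw [← pow_mul]; exact h3.ge (mem_top x)⟩

theorem exists_out (T : Finset G) (h : 2 ^ T.card < (frattini G).index) :
    ∃ w, w ∉ frattini G ⊔ closure (T : Set G) := by
  by_contra h1
  push Not at h1
  have h2 := card_sup_closure_le (N := frattini G) two_ne_zero T (fun x _ => by simp [normalizer_eq_top])
    (fun x _ y _ => commutatorElement_mem_frattini hG x y) fun x _ => pow_mem_frattini hG x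
  rw [show frattini G ⊔ closure (T : Set G) = ⊤ from eq_top_iff.2 fun x _ => h1 x, card_top, ← (frattini G).card_mul_index] at h2
  exact h.not_ge (Nat.le_of_mul_le_mul_left h2 Nat.card_pos)

theorem seven (h : ∀ w ∈ frattini G, w ∈ center G ∧ w ^ 2 = 1) (hi : 8 ≤ (frattini G).index)
    {Z : Subgroup G} {a : G} (ha : a ∈ frattini G) (hZ : ∀ x ∉ frattini G, a⁻¹ * x ^ 2 ∈ Z) : a ∈ Z := by
  classical
  obtain ⟨u, hu⟩ := exists_out hG ∅ (by simp; omega)
  obtain ⟨v, hv⟩ := exists_out hG {u} (by simp; omega)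
  obtain ⟨w, hw⟩ := exists_out hG {u, v} (lt_of_le_of_lt
    (Nat.pow_le_pow_right two_pos Finset.card_le_two) (by omega))
  have n : ∀ (T : Finset G) (x y : G), x ∈ closure (T : Set G) → y ∉ frattini G ⊔ closure (T : Set G) →
      x * y ∉ frattini G := fun T x y h1 h2 e =>
    h2 (by simpa using mul_mem (inv_mem (mem_sup_right h1)) (mem_sup_left e))
  have u2 : u ∈ closure (({u, v} : Finset G) : Set G) := subset_closure (by simp)
  have v2 : v ∈ closure (({u, v} : Finset G) : Set G) := subset_closure (by simp)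
  let f : G → center G := fun x => ⟨x ^ 2, (h _ (pow_mem_frattini hG x)).1⟩
  let k : G → G → center G := fun x y => ⟨_, (h _ (k_mem hG x y)).1⟩
  have f1 : ∀ x y, f (x * y) = f x * k x y * f y := fun x y => Subtype.ext (sq_mul x y)
  have k1 : ∀ x y z, k (x * y) z = k x z * k y z := fun x y z => Subtype.ext (by
    show (x * y)⁻¹ * z * (x * y) * z⁻¹ = (x⁻¹ * z * x * z⁻¹) * (y⁻¹ * z * y * z⁻¹)
    calc _ = y⁻¹ * (x⁻¹ * z * x * z⁻¹) * (z * y * z⁻¹) := by group
      _ = _ := by rw [mem_center_iff.1 (h _ (k_mem hG x z)).1]; group)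
  let π := QuotientGroup.mk' (Z.subgroupOf (center G))
  let a' : center G := ⟨a, (h a ha).1⟩
  have p : ∀ x ∉ frattini G, π (f x) = π a' := fun x hx =>
    (QuotientGroup.eq.2 (mem_subgroupOf.2 (hZ x hx) : a'⁻¹ * f x ∈ _)).symm
  have e : f u * f v * f w * f (u * v) * f (u * w) * f (v * w) * f (u * v * w) =
      f u ^ 2 * f u ^ 2 * f v ^ 2 * f v ^ 2 * f w ^ 2 * f w ^ 2 * k u v ^ 2 * k u w ^ 2 * k v w ^ 2 := by
    simp only [f1, k1, pow_two]; ac_rfl
  have k2 : ∀ x y, k x y ^ 2 = 1 := fun x y => Subtype.ext (h _ (k_mem hG x y)).2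
  have f2 : ∀ x, f x ^ 2 = 1 := fun x => Subtype.ext (h _ (pow_mem_frattini hG x)).2
  simp only [k2, f2, mul_one] at e
  have e2 := congrArg π e
  simp only [map_mul, map_one, p u (mt mem_sup_left hu), p v (mt mem_sup_left hv),
    p w (mt mem_sup_left hw), p _ (n _ u v (subset_closure (by simp)) hv), p _ (n _ u w u2 hw),
    p _ (n _ v w v2 hw), p _ (n _ _ w (mul_mem u2 v2) hw)] at e2
  have e3 : π a' * π a' = 1 := by
    rw [← map_mul, ← pow_two, show a' ^ 2 = 1 from Subtype.ext (h a ha).2, map_one]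
  simp only [e3, one_mul] at e2
  exact mem_subgroupOf.1 ((QuotientGroup.eq_one_iff a').1 e2)

theorem two_vals (h : ∀ w ∈ frattini G, w ∈ center G ∧ w ^ 2 = 1) (hi : (frattini G).index = 16)
    (h5 : ρ ^ 5 = 1) (hf : ∀ x, x⁻¹ * ρ x ∈ frattini G → x ∈ frattini G) (hρ : ∀ w ∈ frattini G, ρ w = w)
    {σ : MulAut G} (h3 : σ ^ 3 = 1) (h1 : σ ≠ 1) (hσ : ∀ w ∈ frattini G, σ w = w) :
    ∃ a ∈ frattini G, ∃ b ∈ frattini G, ∀ x ∉ frattini G, x ^ 2 = a ∨ x ^ 2 = b := by
  by_contra hn
  push Not at hn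
  obtain ⟨x, hx, -⟩ := hn 1 (one_mem _) 1 (one_mem _)
  obtain ⟨y, hy, n1, -⟩ := hn _ (pow_mem_frattini hG x) _ (pow_mem_frattini hG x)
  obtain ⟨z, hz, n2, n3⟩ := hn _ (pow_mem_frattini hG x) _ (pow_mem_frattini hG y)
  let L : G → Set (G ⧸ frattini G) := fun c => {v | ∃ g ∉ frattini G, g ^ 2 = c ∧ ↑g = v}
  have dj : ∀ a b, a ≠ b → Disjoint (L a) (L b) := fun a b e => Set.disjoint_left.2 (by
    rintro _ ⟨g, -, rfl, rfl⟩ ⟨g', -, rfl, e'⟩
    have := h _ (QuotientGroup.eq.1 e')
    exact e (by rw [← mul_inv_cancel_left g' g, Commute.mul_pow (mem_center_iff.1 this.1 g'), this.2,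
      mul_one]))
  have inv : ∀ τ : MulAut G, (∀ w ∈ frattini G, τ w = w) → ∀ c, ∀ v ∈ L c, autQuot _ τ v ∈ L c := by
    rintro τ hτ _ _ ⟨g, g1, rfl, rfl⟩
    refine ⟨τ g, fun e => g1 ?_, by rw [← map_pow, hτ _ (pow_mem_frattini hG g)], rfl⟩
    rwa [τ.injective (hτ _ e)] at e
  have sub : ∀ c, L c ⊆ {1}ᶜ := by
    rintro _ _ ⟨g, g1, -, rfl⟩ e
    exact g1 ((QuotientGroup.eq_one_iff _).1 e)
  have m5 : ∀ g ∉ frattini G, (L (g ^ 2)).ncard % 5 = 0 ∧ 0 < (L (g ^ 2)).ncard := fun g hg => by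
    have := aut_modEq (by norm_num : Nat.Prime 5) (L (g ^ 2)) (inv ρ hρ _) (by rw [← map_pow, h5, map_one])
    rw [Set.eq_empty_of_forall_notMem (s := _ ∩ _) (by
      rintro _ ⟨⟨g, g1, -, rfl⟩, e⟩
      exact g1 (hf _ (QuotientGroup.eq.1 e.symm))), Set.ncard_empty] at this
    exact ⟨this, (Set.ncard_pos (Set.toFinite _)).2 ⟨_, g, hg, rfl, rfl⟩⟩
  have m3 := fun c => aut_modEq Nat.prime_three (L c) (inv σ hσ c) (by rw [← map_pow, h3, map_one])
  have cnt : ∀ (T : Set (G ⧸ frattini G)), 1 ∈ T → (L (x ^ 2) ∩ T).ncard + (L (y ^ 2) ∩ T).ncard +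
      (L (z ^ 2) ∩ T).ncard + 1 ≤ T.ncard := fun T hT => by
    rw [← Set.ncard_union_eq ((dj _ _ n1.symm).mono Set.inter_subset_left Set.inter_subset_left),
      ← Set.ncard_union_eq (Set.disjoint_union_left.2 ⟨(dj _ _ n2.symm).mono Set.inter_subset_left
        Set.inter_subset_left, (dj _ _ n3.symm).mono Set.inter_subset_left Set.inter_subset_left⟩)]
    refine Set.ncard_lt_ncard (Set.ssubset_iff_subset_ne.2 ⟨by
      simp only [Set.union_subset_iff, Set.inter_subset_right, and_self], fun e => ?_⟩)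
    rw [← e] at hT
    rcases hT with (h | h) | h <;> exact sub _ h.1 rfl
  have c1 := cnt Set.univ trivial
  simp only [Set.inter_univ, Set.ncard_univ] at c1
  have c2 := cnt {v | autQuot _ σ v = v} (map_one _)
  let D := (autQuot (frattini G) σ).toMonoidHom.eqLocus (MonoidHom.id _)
  have c3 : {v | autQuot (frattini G) σ v = v}.ncard = Nat.card D := (Nat.card_coe_set_eq _).symm
  obtain ⟨a, b, b1, b2, b3, b4⟩ := pows (V := ⊤) (K := D) ((hG.to_quotient _).to_subgroup _)
    (by rw [card_top]; exact hi.le) (lt_top_iff_ne_top.2 fun e => h1 (aut_eq_one_of_frattini hG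
      (by rw [orderOf_eq_prime h3 h1]; decide) fun g => QuotientGroup.eq.1 (e.ge (mem_top (g : _ ⧸ _))).symm))
  have c4 := aut_modEq Nat.prime_three (Set.univ : Set (G ⧸ frattini G)) (ρ := autQuot _ σ) (by simp)
    (by rw [← map_pow, h3, map_one])
  rw [Set.univ_inter, Set.ncard_univ, c3, b4] at c4
  have c5 : Nat.card (G ⧸ frattini G) = 16 := hi
  have c6 : 2 ^ b ≤ 4 := by
    have : b < 4 := by omega
    rw [c5] at c4
    interval_cases b <;> first | omega | exact absurd c4 (by decide)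
  have := m5 x hx
  have := m5 y hy
  have := m5 z hz
  have k : ∀ c, (L c).ncard = 5 → 2 ≤ (L c ∩ {v | autQuot (frattini G) σ v = v}).ncard := fun c e => by
    have := m3 c
    rw [e, Nat.ModEq] at this
    omega
  have := k (x ^ 2) (by omega)
  have := k (y ^ 2) (by omega)
  have := k (z ^ 2) (by omega)
  omega

end

theorem lift_odd [Finite G] {Q : Subgroup G} [Q.Normal] (hQ : IsPGroup 2 Q) {q : ℕ} (hq : Odd q)
    (a : G ⧸ Q) (ha : a ^ q = 1) : ∃ r : G, ↑r = a ∧ r ^ q = 1 := by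
  obtain ⟨r, rfl⟩ := QuotientGroup.mk_surjective a
  obtain ⟨k, hk⟩ := hQ ⟨r ^ q, (QuotientGroup.eq_one_iff _).1 ha⟩
  obtain ⟨m, hm⟩ := exists_pow_eq_self_of_coprime (x := (r : G ⧸ Q)) (n := 2 ^ k)
    ((Nat.Coprime.pow_left k hq.coprime_two_left).coprime_dvd_right (orderOf_dvd_of_pow_eq_one ha))
  refine ⟨(r ^ 2 ^ k) ^ m, hm, ?_⟩
  have : (r ^ q) ^ 2 ^ k = 1 := congrArg Subtype.val hk
  rw [pow_right_comm, pow_right_comm r, this, one_pow]

end Cfsg.Agent.GH4
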