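import Mathlib
import Cfsg.Agent.GH4.B

/-! Two-constrained groups of sectional rank four involving the alternating group of degree five. -/

set_option autoImplicit false

namespace Cfsg.Agent.GH4

open Cfsg Subgroup Cfsg.Agent.PGrp

theorem a5 : ∃ r t g : alternatingGroup (Fin 5), r ≠ 1 ∧ r ^ 5 = 1 ∧ t ^ 2 = 1 ∧ t * r * t⁻¹ * r = 1 ∧
    (r * (g * r * g⁻¹)) ^ 3 = 1 ∧ r * (g * r * g⁻¹) ≠ 1 := by
  refine ⟨⟨Equiv.swap 0 1 * Equiv.swap 1 2 * Equiv.swap 2 3 * Equiv.swap 3 4,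
    Equiv.Perm.mem_alternatingGroup.2 (by decide)⟩, ⟨Equiv.swap 1 4 * Equiv.swap 2 3,
    Equiv.Perm.mem_alternatingGroup.2 (by decide)⟩, ⟨Equiv.swap 0 1 * Equiv.swap 2 3,
    Equiv.Perm.mem_alternatingGroup.2 (by decide)⟩, ?_⟩
  simp only [Ne, Subtype.ext_iff, coe_mul, coe_pow, coe_inv, coe_one, pow_succ, pow_zero]
  refine ⟨?_, ?_, ?_, ?_, ?_, ?_⟩ <;> decide +kernel

theorem main5 {X : Type*} [Group X] [Finite X] {Q : Subgroup X} [Q.Normal] (hQ2 : IsPGroup 2 Q)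
    (hC : centralizer (Q : Set X) ≤ Q) (h : Sect 2 4 X) (φ : alternatingGroup (Fin 5) →* X ⧸ Q)
    (hφ : Function.Injective φ) : (IsElementaryAbelian 2 Q ∧ Nat.card Q = 16) ∨
      (Nat.card Q = 32 ∧ ({x : Q | x ^ 2 = 1}).ncard % 5 = 2 ∧ ∃ A B : Subgroup Q,
        Nonempty (A ≃* QuaternionGroup 2) ∧ Nonempty (B ≃* DihedralGroup 4) ∧
        (∀ a ∈ A, ∀ b ∈ B, a * b = b * a) ∧ A ⊔ B = ⊤ ∧ A ⊓ B = center Q) := by
  obtain ⟨r0, t0, g0, a1, a2, a3, a4, a5, a6⟩ := a5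
  haveI : Fact (Nat.Prime 5) := ⟨by norm_num⟩
  obtain ⟨r, hr, r5⟩ := lift_odd hQ2 (by decide : Odd 5) (φ r0) (by rw [← map_pow, a2, map_one])
  obtain ⟨s, hs, s3⟩ := lift_odd hQ2 (by decide : Odd 3) (φ (r0 * (g0 * r0 * g0⁻¹)))
    (by rw [← map_pow, a5, map_one])
  obtain ⟨t, ht⟩ := QuotientGroup.mk_surjective (φ t0)
  obtain ⟨g, hg⟩ := QuotientGroup.mk_surjective (φ g0)
  have nt : ∀ y : X, MulAut.conjNormal (H := Q) y = 1 → (y : X ⧸ Q) = 1 := fun y e =>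
    (QuotientGroup.eq_one_iff _).2 (hC (mem_centralizer_iff.2 fun x hx => by
      have := congrArg (fun a : MulAut Q => ((a ⟨x, hx⟩ : Q) : X)) e
      simp only [MulAut.conjNormal_apply, MulAut.one_apply] at this
      exact (mul_inv_eq_iff_eq_mul.1 this).symm))
  set ρ := MulAut.conjNormal (H := Q) r with hρ
  set σ := MulAut.conjNormal (H := Q) s with hσ
  have ρ5 : ρ ^ 5 = 1 := by rw [← map_pow, r5, map_one]
  have ρ1 : ρ ≠ 1 := fun e => a1 (hφ (by rw [← hr, nt r e, map_one]))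
  set W := (frattini Q).map Q.subtype with hW
  have mW : ∀ x : Q, (x : X) ∈ W ↔ x ∈ frattini Q := fun x => mem_map_iff_mem Q.subtype_injective
  have ρn : ∃ x : Q, x⁻¹ * ρ x ∉ frattini Q := not_forall.1 fun e => ρ1
    (aut_eq_one_of_frattini hQ2 (by rw [orderOf_eq_prime ρ5 ρ1]; decide) e)
  have hrW := cent5 _ X rfl h Q W r t hQ2 (map_subtype_le _) (fun x hx => pow_mem_map_frattini hQ2 hx)
    r5 ((QuotientGroup.eq_one_iff _).1 (by rw [QuotientGroup.mk_pow, ht, ← map_pow, a3, map_one]))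
    ((QuotientGroup.eq_one_iff _).1 (by
      simp only [QuotientGroup.mk_mul, QuotientGroup.mk_inv, ht, hr, ← map_mul, ← map_inv, a4, map_one]))
    (ρn.elim fun x hx => ⟨x, x.2, mt (mW (x⁻¹ * ρ x)).1 hx⟩)
  have ρW : ∀ w ∈ frattini Q, ρ w = w := fun w hw => Subtype.ext (hrW _ ((mW w).2 hw))
  have irr : ∀ K : Subgroup Q, frattini Q ≤ K → (∀ x ∈ K, ρ x ∈ K) → (∃ x ∈ K, x⁻¹ * ρ x ∉ frattini Q) →
      (frattini Q).relIndex K = 16 ∧ ∀ x ∈ K, x⁻¹ * ρ x ∈ frattini Q → x ∈ frattini Q := by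
    rintro K k1 k2 ⟨y, k3, k4⟩
    let π := QuotientGroup.mk' W
    have := fpf5 (V := (K.map Q.subtype).map π) (r := π r) (((hQ2.to_subgroup K).map _).map _) (by
        refine (relIndex_ker _ π).symm.trans_le ?_
        rw [QuotientGroup.ker_mk']
        exact sect2 h (map_mono k1) fun x hx => pow_mem_map_frattini hQ2 (map_subtype_le _ hx))
      (by rintro _ ⟨_, ⟨x, hx, rfl⟩, rfl⟩; exact ⟨_, ⟨_, k2 x hx, rfl⟩, by simp [hρ]⟩)
      (by simp [← map_pow, r5]) fun e => k4 ((mW _).1 (QuotientGroup.eq.1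
        (mcs.1 (e ⟨_, ⟨y, k3, rfl⟩, rfl⟩)).symm))
    refine ⟨?_, fun x hx e => (mW x).1 ((QuotientGroup.eq_one_iff _).1 (this.2 _ ⟨_, ⟨x, hx, rfl⟩, rfl⟩
      (QuotientGroup.eq.2 ((mW _).2 e)).symm))⟩
    rw [← this.1, ← relIndex_ker, QuotientGroup.ker_mk', relIndex_map_map_of_injective _ _ Q.subtype_injective]
  obtain ⟨i1, i2⟩ := irr ⊤ le_top (fun _ _ => mem_top _) (ρn.elim fun x hx => ⟨x, mem_top _, hx⟩)
  rw [relIndex_top_right] at i1
  have hf := fun x => i2 x (mem_top x)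
  have c2 := class_two hQ2 hf ρW
  have σW : ∀ w ∈ frattini Q, σ w = w := fun w hw => by
    have k1 : r ∈ centralizer (W : Set X) := mem_centralizer_iff.2 fun y hy =>
      (mul_inv_eq_iff_eq_mul.1 (hrW y hy)).symm
    have k2 : Q ≤ centralizer (W : Set X) := fun q hq => mem_centralizer_iff.2 (by
      rintro _ ⟨y, hy, rfl⟩
      exact congrArg Subtype.val (mem_center_iff.1 (c2 y hy).1 ⟨q, hq⟩).symm)
    have k3 : (r * (g * r * g⁻¹))⁻¹ * s ∈ Q := QuotientGroup.eq.1 (by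
      simp only [QuotientGroup.mk_mul, QuotientGroup.mk_inv, hg, hr, hs, map_mul, map_inv])
    have k4 := mul_mem (mul_mem k1 (Normal.conj_mem inferInstance r k1 g)) (k2 k3)
    rw [mul_inv_cancel_left] at k4
    exact Subtype.ext (mul_inv_eq_iff_eq_mul.2 (k4 _ ((mW w).2 hw)).symm)
  obtain ⟨z, hz, k⟩ : ∃ z ∈ frattini Q, ∀ x ∉ frattini Q, x ^ 2 = 1 ∨ x ^ 2 = z := by
    obtain ⟨a, ha, b, hb, k⟩ := two_vals hQ2 c2 i1 ρ5 hf ρW (σ := σ) (by rw [← map_pow, s3, map_one])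
      (fun e => a6 (hφ (by rw [← hs, nt s e, map_one]))) σW
    have := seven hQ2 c2 (by omega) (Z := zpowers (a⁻¹ * b)) ha fun x hx =>
      (k x hx).elim (fun e => by simp [e]) fun e => e ▸ mem_zpowers _
    by_cases h1 : a⁻¹ * b = 1
    · rw [h1, zpowers_one_eq_bot, mem_bot] at this
      exact ⟨b, hb, this ▸ k⟩
    rcases eq_one_or_eq_of_mem_zpowers_two (orderOf_eq_prime (c2 _ (mul_mem (inv_mem ha) hb)).2 h1) this
      with e | e
    · exact ⟨b, hb, e ▸ k⟩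
    · refine ⟨a, ha, fun x hx => (k x hx).symm.imp_left fun e' => ?_⟩
      rw [e', ← (c2 a ha).2, pow_two, ← inv_mul_eq_iff_eq_mul, ← e]
  have cq := (frattini Q).card_mul_index
  by_cases h0 : frattini Q = ⊥
  · obtain ⟨b1, b2⟩ := (frattini_eq_bot_iff hQ2).1 h0
    rw [h0, card_bot, one_mul] at cq
    rw [h0] at i1
    exact Or.inl ⟨⟨b1, fun a ha => congrArg Subtype.val (b2 ⟨a, ha⟩)⟩, cq ▸ i1⟩
  have hΦ : frattini Q = zpowers z := le_antisymm (frat_le hQ2 fun x => by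
    by_cases hx : x ∈ frattini Q
    · simp [(c2 x hx).2]
    · rcases k x hx with e | e <;> simp [e]) (zpowers_le.2 hz)
  have z1 : z ≠ 1 := fun e => h0 (by simp [hΦ, e])
  have oz := orderOf_eq_prime (c2 z hz).2 z1
  have h32 : Nat.card Q = 32 := by rw [← cq, i1, hΦ, Nat.card_zpowers, oz]
  have hZ : center Q = frattini Q := by
    refine le_antisymm (fun x hx => ?_) fun x hx => (c2 x hx).1
    by_contra h1
    have k1 := (irr (center Q) (fun x hx => (c2 x hx).1) (fun y hy => mem_center_iff.2 fun u => by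
      obtain ⟨u, rfl⟩ := ρ.surjective u
      rw [← map_mul, ← map_mul, mem_center_iff.1 hy u]) ⟨x, hx, mt (hf x) h1⟩).1
    have k2 := relIndex_mul_index (fun x hx => (c2 x hx).1 : frattini Q ≤ center Q)
    have k3 : center Q = ⊤ := index_eq_one.1 (by rw [k1, i1] at k2; omega)
    let N : Subgroup Q :=
      { carrier := {x | x ^ 2 = 1}
        one_mem' := one_pow 2
        mul_mem' := fun {a b} (ha : _ = _) (hb : _ = _) => show _ = _ by
          rw [Commute.mul_pow (mem_center_iff.1 (k3.ge (mem_top b)) a), ha, hb, mul_one]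
        inv_mem' := fun {a} (ha : _ = _) => show _ = _ by rw [inv_pow, ha, inv_one] }
    have k4 : N = ⊤ := gen_top hQ2 hf fun y => show _ = _ by
      rw [Commute.mul_pow (mem_center_iff.1 (k3.ge (mem_top _)) _), ← map_pow,
        ρW _ (pow_mem_frattini hQ2 y), inv_pow, inv_mul_cancel]
    exact h0 (le_bot_iff.1 (frat_le hQ2 fun y => k4.ge (mem_top y)))
  obtain ⟨x, x1, x2⟩ : ∃ x ∉ frattini Q, x ^ 2 = 1 := by
    by_contra h1
    push Not at h1
    exact z1 (seven hQ2 c2 (by omega) (Z := ⊥) hz fun x hx => by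
      simp [(k x hx).resolve_left (h1 x hx)])
  have mc : ∀ x, x ∈ center Q ↔ x = 1 ∨ x = z := fun x => by
    rw [hZ, hΦ]
    exact ⟨eq_one_or_eq_of_mem_zpowers_two oz, by rintro (rfl | rfl) <;> simp⟩
  have := aut_modEq (by norm_num : Nat.Prime 5) {x : Q | x ^ 2 = 1} (ρ := ρ)
    (fun x (hx : _ = _) => show _ = _ by rw [← map_pow, hx, map_one]) ρ5
  rw [show {x : Q | x ^ 2 = 1} ∩ {x | ρ x = x} = {1, z} from Set.ext fun x => ⟨fun hx => (mc x).1
    (hZ ▸ hf x (by rw [show ρ x = x from hx.2]; simp)), by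
      rintro (rfl | rfl)
      exacts [⟨one_pow 2, map_one ρ⟩, ⟨(c2 _ hz).2, ρW _ hz⟩]⟩, Set.ncard_pair z1.symm] at this
  exact Or.inr ⟨h32, this, minus32 h32 z1 mc (fun x => hZ ▸ pow_mem_frattini hQ2 x) this (hZ ▸ x1) x2⟩

end Cfsg.Agent.GH4
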