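import Mathlib
import Cfsg.Agent.GH4.B

/-! Extensions of a four-dimensional module by the symmetric group of degree six. -/

set_option autoImplicit false

namespace Cfsg.Agent.GH4

open Cfsg Subgroup Cfsg.Agent.PGrp

variable {G : Type*} [Group G]

theorem ext_mod [Finite G] {N K : Subgroup G} {w : G} (hNK : N ≤ K) (hK : ∀ k ∈ K, k ^ 2 ∈ N) (hw : w ∉ K)
    (hw2 : w ^ 2 ∈ N) (hc : ∀ k ∈ K, w * k * w⁻¹ * k⁻¹ ∈ N) : ∃ L : Subgroup G, K ≤ L ∧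
      (∀ k ∈ L, k ^ 2 ∈ N) ∧ (∀ x ∈ L, x ∈ K ∨ x * w⁻¹ ∈ K) ∧ 2 * N.relIndex K ≤ N.relIndex L := by
  have k1 : ∀ s ∈ K, w * s * w⁻¹ ∈ K := fun s hs => by simpa using K.mul_mem (hNK (hc s hs)) hs
  have k2 : ∀ s ∈ K, w⁻¹ * s * w ∈ K := fun s hs => by
    have := K.mul_mem (K.mul_mem (K.inv_mem (hNK hw2)) (k1 s hs)) (hNK hw2)
    simpa [pow_two, mul_assoc] using this
  let H : Subgroup G :=
    { carrier := {x | x ∈ K ∨ x * w⁻¹ ∈ K}
      one_mem' := Or.inl K.one_mem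
      mul_mem' := by
        rintro a b (ha | ha) (hb | hb)
        · exact Or.inl (K.mul_mem ha hb)
        · exact Or.inr (by simpa [mul_assoc] using K.mul_mem ha hb)
        · exact Or.inr (by simpa [mul_assoc] using K.mul_mem ha (k1 b hb))
        · exact Or.inl (by simpa [mul_assoc, pow_two] using K.mul_mem (K.mul_mem ha (k1 _ hb)) (hNK hw2))
      inv_mem' := by
        rintro a (ha | ha)
        · exact Or.inl (K.inv_mem ha)
        · exact Or.inr (by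
            simpa [mul_assoc, pow_two] using K.mul_mem (k2 _ (K.inv_mem ha)) (K.inv_mem (hNK hw2))) }
  have hSH : K ≤ H := fun x hx => Or.inl hx
  refine ⟨H, hSH, ?_, fun x hx => hx, ?_⟩
  · rintro x (hx | hx)
    · exact hK x hx
    · have h1 := hc _ hx
      have h2 := N.mul_mem (N.mul_mem (N.mul_mem (comm_mem hK hx (hNK h1)) h1) (hK _ hx)) hw2
      simpa [pow_two, mul_assoc] using h2
  · rw [← relIndex_mul_relIndex N K H hNK hSH, mul_comm]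
    refine Nat.mul_le_mul_left _ ?_
    have h2 : K.relIndex H ≠ 1 := fun e => hw (relIndex_eq_one.1 e (Or.inr (by simpa using K.one_mem)))
    have h3 : K.relIndex H ≠ 0 := FiniteIndex.index_ne_zero
    omega

theorem comm_step {N K : Subgroup G} {w y : G} (hK : ∀ k ∈ K, k ^ 2 ∈ N) (hNK : N ≤ K)
    (hc : ∀ k ∈ K, y * k * y⁻¹ * k⁻¹ ∈ N) (h : y * w * y⁻¹ * w⁻¹ ∈ N) {x : G}
    (hx : x ∈ K ∨ x * w⁻¹ ∈ K) : y * x * y⁻¹ * x⁻¹ ∈ N := by
  rcases hx with hx | hx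
  · exact hc x hx
  · have := N.mul_mem (N.mul_mem (hc _ hx) (comm_mem hK hx (hNK h))) h
    have h2 := N.mul_mem (hc _ hx) (N.mul_mem (comm_mem hK hx (hNK h)) h)
    simpa [mul_assoc] using h2

theorem fin3 [Finite G] (h : Sect 2 4 G) {N H V : Subgroup G} {a b c : G} (hNH : N ≤ H) (hHV : H ≤ V)
    (hH : ∀ k ∈ H, k ^ 2 ∈ N) (hi : 4 ≤ N.relIndex H) (a2 : a ^ 2 ∈ N) (b2 : b ^ 2 ∈ N) (c2 : c ^ 2 ∈ N)
    (aH : ∀ k ∈ H, a * k * a⁻¹ * k⁻¹ ∈ N) (bH : ∀ k ∈ H, b * k * b⁻¹ * k⁻¹ ∈ N)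
    (cH : ∀ k ∈ H, c * k * c⁻¹ * k⁻¹ ∈ N) (ab : b * a * b⁻¹ * a⁻¹ ∈ N) (ac : c * a * c⁻¹ * a⁻¹ ∈ N)
    (bc : c * b * c⁻¹ * b⁻¹ ∈ N) (n1 : a ∉ V) (n2 : b ∉ V) (n3 : b * a⁻¹ ∉ V) (n4 : c ∉ V)
    (n5 : c * a⁻¹ ∉ V) (n6 : c * b⁻¹ ∉ V) (n7 : c * b⁻¹ * a⁻¹ ∉ V) : False := by
  obtain ⟨K, k1, k2, k3, k4⟩ := ext_mod hNH hH (fun e => n1 (hHV e)) a2 aH
  obtain ⟨L, l1, l2, l3, l4⟩ := ext_mod (hNH.trans k1) k2
    (fun e => (k3 _ e).elim (fun e => n2 (hHV e)) fun e => n3 (hHV e)) b2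
    fun k hk => comm_step hH hNH bH ab (k3 k hk)
  obtain ⟨M, m1, m2, -, m4⟩ := ext_mod ((hNH.trans k1).trans l1) l2
    (fun e => (l3 _ e).elim (fun e => (k3 _ e).elim (fun e => n4 (hHV e)) fun e => n5 (hHV e))
      fun e => (k3 _ e).elim (fun e => n6 (hHV e)) fun e => n7 (hHV e)) c2
    fun k hk => comm_step k2 (hNH.trans k1) (fun k hk => comm_step hH hNH cH ac (k3 k hk)) bc (l3 k hk)
  have := sect2 h (((hNH.trans k1).trans l1).trans m1) m2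
  omega

theorem idx2 [Finite G] {K M : Subgroup G} (hK : K ≤ M) (h : Nat.card M = Nat.card K * 2) {a b : G}
    (ha : a ∈ M) (hb : b ∈ M) (a1 : a ∉ K) (b1 : b ∉ K) : a * b ∈ K := by
  have h1 := (K.subgroupOf M).card_mul_index
  rw [Nat.card_congr (subgroupOfEquivOfLe hK).toEquiv, h] at h1
  exact (mul_mem_iff_of_index_two (Nat.eq_of_mul_eq_mul_left Nat.card_pos h1) (a := ⟨a, ha⟩)
    (b := ⟨b, hb⟩)).2 (iff_of_false a1 b1)

theorem two_fix [Finite G] {N : Subgroup G} (h : Nat.card N = 2) {n g : G} (hn : n ∈ N)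
    (hg : g * n * g⁻¹ ∈ N) : g * n * g⁻¹ = n := by
  by_cases h1 : n = 1
  · simp [h1]
  have := idx2 (K := ⊥) bot_le (by simpa using h) hg (N.inv_mem hn) (by simpa using h1) (by simpa using h1)
  exact mul_inv_eq_one.1 this

/-- Elements of `V` centralized by `g` modulo `N`. -/
def cm (V N : Subgroup G) [V.Normal] (vc : ∀ a ∈ V, ∀ b ∈ V, a * b = b * a) (g : G) : Subgroup G where
  carrier := {u | u ∈ V ∧ g * u * g⁻¹ * u⁻¹ ∈ N}
  one_mem' := ⟨V.one_mem, by simp⟩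
  mul_mem' := fun {a b} ha hb => ⟨V.mul_mem ha.1 hb.1, by
    convert N.mul_mem ha.2 hb.2 using 1
    rw [mul_assoc (g * a * g⁻¹), vc _ (V.inv_mem ha.1) _ (V.mul_mem (Normal.conj_mem ‹_› b hb.1 g)
      (V.inv_mem hb.1))]
    group⟩
  inv_mem' := fun {a} ha => ⟨V.inv_mem ha.1, by
    convert N.inv_mem ha.2 using 1
    rw [vc _ (Normal.conj_mem ‹_› a ha.1 g) _ (V.inv_mem ha.1)]
    group⟩

theorem no6 [Finite G] (h : Sect 2 4 G) {V : Subgroup G} [nV : V.Normal]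
    (vc : ∀ a ∈ V, ∀ b ∈ V, a * b = b * a) (v2 : ∀ a ∈ V, a ^ 2 = 1) (h16 : Nat.card V = 16)
    (hC : centralizer (V : Set G) ≤ V) {s f t : G} (s3 : s ^ 3 = 1) (f2 : f ^ 2 ∈ V)
    (ff : f * (s * f * s⁻¹) * (s⁻¹ * f * s) ∈ V) (fc : (s * f * s⁻¹) * f * (s * f * s⁻¹)⁻¹ * f⁻¹ ∈ V)
    (t2 : t ^ 2 ∈ V) (ts : s * t * s⁻¹ = t) (tf : t * f * t⁻¹ * f⁻¹ ∈ V) (t1 : t ∉ V)
    (L4 : Nat.card (V ⊓ centralizer {f} : Subgroup G) = 4)
    (tr : ∀ v ∈ V, f * v * f⁻¹ = v → ∃ u ∈ V, u * (f * u * f⁻¹) = v)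
    (hn : ¬ V ⊓ centralizer {f} ≤ centralizer {s * f * s⁻¹}) : False := by
  have vc' : ∀ a ∈ V, ∀ b ∈ V, a * b * a⁻¹ = b := fun a ha b hb => by rw [vc a ha b hb]; group
  have vi : ∀ a ∈ V, a⁻¹ = a := fun a ha => inv_eq_of_mul_eq_one_left (by rw [← pow_two, v2 a ha])
  have hV : IsPGroup 2 V := IsPGroup.of_card (n := 4) h16
  have ss : s * s = s⁻¹ := eq_inv_of_mul_eq_one_left (by rw [← s3]; simp [pow_succ])
  have cmm : ∀ a b : G, a * b * a⁻¹ * b⁻¹ ∈ V → ∀ u ∈ V, b * u * b⁻¹ = u →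
      b * (a * u * a⁻¹) * b⁻¹ = a * u * a⁻¹ := fun a b e u hu e2 => by
    calc _ = (a * b * a⁻¹ * b⁻¹)⁻¹ * (a * (b * u * b⁻¹) * a⁻¹) * (a * b * a⁻¹ * b⁻¹)⁻¹⁻¹ := by group
      _ = _ := by rw [e2, vc' _ (V.inv_mem e) _ (nV.conj_mem u hu a)]
  set g := s * f * s⁻¹ with hg
  set L := V ⊓ centralizer {f} with hL
  set N := L ⊓ centralizer {g} with hN
  have g2 : g ^ 2 ∈ V := by rw [hg, conj_pow]; exact nV.conj_mem _ f2 s
  have tg : t * g * t⁻¹ * g⁻¹ ∈ V := by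
    convert nV.conj_mem _ tf s using 1
    rw [hg]; nth_rw 1 2 [← ts]; group
  have gL : ∀ u ∈ L, g * u * g⁻¹ ∈ L := fun u hu =>
    ⟨nV.conj_mem u hu.1 g, mcs.2 (cmm g f fc u hu.1 (mcs.1 hu.2))⟩
  have N2 : Nat.card N = 2 := by
    have e := sub_modEq Nat.prime_two L gL fun x hx => vc' _ g2 x hx.1
    obtain ⟨a, b, b1, -, b3, b4⟩ := pows (V := L) (hV.to_le inf_le_left) (by omega) (K := N)
      (lt_of_le_of_ne inf_le_left fun e => hn (e.ge.trans inf_le_right))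
    rw [L4] at e b3
    obtain rfl : a = 2 := (Nat.pow_right_injective (le_refl 2) (show 2 ^ 2 = 2 ^ a from b3)).symm
    rw [← hN, b4] at e
    rw [b4]
    interval_cases b
    · exact absurd e (by decide)
    · rfl
  have NV : N ≤ V := fun x hx => hx.1.1
  have k3 : ∀ u ∈ V, (s⁻¹ * f * s) * u * (s⁻¹ * f * s)⁻¹ = g⁻¹ * (f⁻¹ * u * f) * g := fun u hu => by
    calc _ = g⁻¹ * (f⁻¹ * (f * g * (s⁻¹ * f * s) * u * (f * g * (s⁻¹ * f * s))⁻¹) * f) * g := by group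
      _ = _ := by rw [vc' _ ff u hu]
  have fi : ∀ a : G, a ^ 2 ∈ V → ∀ u ∈ V, a⁻¹ * u * a = a * u * a⁻¹ := fun a ha u hu => by
    calc _ = a⁻¹ * (a ^ 2 * u * (a ^ 2)⁻¹) * a := by rw [vc' _ ha u hu]
      _ = _ := by rw [pow_two]; group
  have sN : ∀ n ∈ N, s * n * s⁻¹ = n := fun n hn => two_fix N2 hn ⟨⟨nV.conj_mem n hn.1.1 s, mcs.2 (by
      calc _ = s * ((s⁻¹ * f * s) * n * (s⁻¹ * f * s)⁻¹) * s⁻¹ := by group
        _ = _ := by rw [k3 n hn.1.1, fi f f2 n hn.1.1, mcs.1 hn.1.2, fi g g2 n hn.1.1, mcs.1 hn.2])⟩,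
      mcs.2 (by
      calc _ = s * (f * n * f⁻¹) * s⁻¹ := by rw [hg]; group
        _ = _ := by rw [mcs.1 hn.1.2])⟩
  have tN : ∀ n ∈ N, t * n * t⁻¹ = n := fun n hn => two_fix N2 hn ⟨⟨nV.conj_mem n hn.1.1 t,
    mcs.2 (cmm t f tf n hn.1.1 (mcs.1 hn.1.2))⟩, mcs.2 (cmm t g tg n hn.1.1 (mcs.1 hn.2))⟩
  have trf : ∀ a : G, a ^ 2 ∈ V → ∀ u ∈ V, a * (a * u * a⁻¹ * u⁻¹) * a⁻¹ = a * u * a⁻¹ * u⁻¹ :=
    fun a ha u hu => by
    calc _ = a ^ 2 * u * (a ^ 2)⁻¹ * (a * u * a⁻¹)⁻¹ := by rw [pow_two]; group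
      _ = _ := by rw [vc' _ ha u hu, vi _ (nV.conj_mem u hu a), vi u hu, vc u hu _ (nV.conj_mem u hu a)]
  set H := cm V N vc f ⊓ cm V N vc g with hH
  have HV : H ≤ V := fun x hx => hx.1.1
  have LH : L ≤ H := fun u hu => ⟨⟨hu.1, by simp [mcs.1 hu.2]⟩, hu.1,
    L.mul_mem (gL u hu) (L.inv_mem hu), mcs.2 (trf g g2 u hu.1)⟩
  have fc' : f * g * f⁻¹ * g⁻¹ ∈ V := by simpa [mul_assoc] using V.inv_mem fc
  set L' := V ⊓ centralizer {g} with hL'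
  have LH' : L' ≤ H := fun u hu => ⟨⟨hu.1, ⟨V.mul_mem (nV.conj_mem u hu.1 f) (V.inv_mem hu.1),
    mcs.2 (trf f f2 u hu.1)⟩, Subgroup.mul_mem _ (mcs.2 (cmm f g fc' u hu.1 (mcs.1 hu.2)))
      (Subgroup.inv_mem _ hu.2)⟩,
    hu.1, by simp [mcs.1 hu.2]⟩
  have sL : ∀ u ∈ L, s * u * s⁻¹ ∈ L' := fun u hu => ⟨nV.conj_mem u hu.1 s, mcs.2 (by
    calc _ = s * (f * u * f⁻¹) * s⁻¹ := by rw [hg]; group
      _ = _ := by rw [mcs.1 hu.2])⟩
  have L4' : 4 ≤ Nat.card L' := L4 ▸ Nat.card_le_card_of_injective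
    (fun u : L => (⟨_, sL u u.2⟩ : L')) fun a b e => Subtype.ext (by simpa using e)
  have trN : ∀ x ∈ V, (∀ u ∈ V, u ∈ H ∨ u * x ∈ H) → f * x * f⁻¹ * x⁻¹ ∉ N := fun x hx e e' =>
    hn fun v hv => by
      obtain ⟨u, hu, rfl⟩ := tr v hv.1 (mcs.1 hv.2)
      have : u ∈ cm V N vc f := (e u hu).elim (fun e => e.1) fun e => by
        simpa using (cm V N vc f).mul_mem e.1 ((cm V N vc f).inv_mem ⟨hx, e'⟩)
      have := this.2.2
      rwa [vi u hu, vc _ (nV.conj_mem u hu f) u hu] at this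
  have H8 : L ⊔ L' = H ∧ Nat.card H = 8 ∧ Nat.card L' = 4 := by
    have e1 := Core.card_sup_mul_card_inf (N := L) (H := L') fun b hb => centralizer_le_normalizer _
      (mem_centralizer_iff.2 fun a ha => vc a ha.1 b hb.1)
    rw [show L ⊓ L' = N from by rw [hN, hL', ← inf_assoc, inf_eq_left.2 (inf_le_left : L ≤ V)], N2,
      L4] at e1
    have e2 := card_le_of_le (sup_le LH LH')
    obtain ⟨a, b, b1, b2, b3, b4⟩ := pows hV h16.le (K := H) (lt_of_le_of_ne HV fun e =>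
      trN 1 V.one_mem (fun u hu => Or.inl (e.ge hu)) (by simp))
    have : 2 ^ b ≤ 2 ^ 3 := Nat.pow_le_pow_right two_pos (by omega)
    exact ⟨eq_of_le_of_card_ge (sup_le LH LH') (by omega), by omega, by omega⟩
  have sN' : ∀ n ∈ N, s * n * s⁻¹ ∈ N := fun n hn => (sN n hn).symm ▸ hn
  have sH : ∀ u ∈ H, s * u * s⁻¹ ∈ H := fun u hu => ⟨⟨nV.conj_mem u (HV hu) s, by
      have e : (s⁻¹ * f * s) * u * (s⁻¹ * f * s)⁻¹ * u⁻¹ ∈ N := by
        rw [k3 u (HV hu), fi f f2 u (HV hu), fi g g2 _ (nV.conj_mem u (HV hu) f)]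
        have := N.mul_mem hu.1.2 hu.2.2
        rw [← mcs.1 hu.1.2.2] at this
        convert this using 1
        group
      convert sN' _ e using 1
      group⟩, nV.conj_mem u (HV hu) s, by
      convert sN' _ hu.1.2 using 1
      rw [hg]; group⟩
  have NH : N ≤ H := inf_le_left.trans LH
  have Hs : H ⊓ centralizer {s} = N := by
    have e := sub_modEq Nat.prime_three H sH (by simp [s3])
    obtain ⟨a, b, b1, -, b3, b4⟩ := pows (hV.to_le HV) (by omega) (K := H ⊓ centralizer {s})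
      (lt_of_le_of_ne inf_le_left fun e => hn fun u hu => by
        have := (sL u hu).2
        rwa [mcs.1 (e.ge (LH hu)).2] at this)
    rw [H8.2.1] at e b3
    obtain rfl : a = 3 := (Nat.pow_right_injective (le_refl 2) (show 2 ^ 3 = 2 ^ a from b3)).symm
    refine (eq_of_le_of_card_ge (le_inf NH fun n hn => mcs.2 (sN n hn)) ?_).symm
    rw [b4] at e ⊢
    rw [N2]
    interval_cases b <;> first | omega | exact absurd e (by decide)
  have Hs' : ∀ u ∈ H, s * u * s⁻¹ * u⁻¹ ∈ N → u ∈ N := fun u hu e => Hs.le ⟨hu, mcs.2 (by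
    generalize hn : s * u * s⁻¹ * u⁻¹ = n at e
    have e1 : s * u * s⁻¹ = u * n := by rw [vc u (HV hu) n (NV e), ← hn]; group
    have e2 := conj_pow_eq e1 (sN n e) 3
    rw [s3, pow_succ, v2 n (NV e)] at e2
    rw [e1]; simpa using e2.symm)⟩
  obtain ⟨x, x1, x2, x3⟩ : ∃ x ∈ V, s * x * s⁻¹ = x ∧ x ∉ H := by
    by_contra e
    push Not at e
    have e1 := sub_modEq Nat.prime_three V (fun x hx => nV.conj_mem x hx s) (by simp [s3])
    rw [show V ⊓ centralizer {s} = N from le_antisymm (fun x hx => Hs.le ⟨e x hx.1 (mcs.1 hx.2), hx.2⟩)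
      fun n hn => ⟨NV hn, mcs.2 (sN n hn)⟩, h16, N2] at e1
    exact absurd e1 (by decide)
  have i2 : ∀ u ∈ V, u ∈ H ∨ u * x ∈ H := fun u hu => or_iff_not_imp_left.2 fun e =>
    idx2 HV (by omega) hu x1 e x3
  have x4 := trN x x1 i2
  have tH : ∀ u ∈ H, t * u * t⁻¹ * u⁻¹ ∈ N := fun u hu => by
    refine ((H8.1.ge.trans (sup_le (fun u hu => ?_) fun u hu => ?_) : H ≤ cm V N vc t) hu).2
    · refine ⟨hu.1, ?_⟩
      by_cases e : u ∈ N
      · simp [tN u e]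
      · refine idx2 (K := N) (M := L) inf_le_left (by omega)
          ⟨nV.conj_mem u hu.1 t, mcs.2 (cmm t f tf u hu.1 (mcs.1 hu.2))⟩
          (inv_mem hu) (fun e' => e ?_) (mt (inv_mem_iff (H := N)).1 e)
        rwa [show t * u * t⁻¹ = u by simpa using tN _ e'] at e'
    · refine ⟨hu.1, ?_⟩
      by_cases e : u ∈ N
      · simp [tN u e]
      · refine idx2 (K := N) (M := L') (fun y hy => ⟨hy.1.1, hy.2⟩) (by omega)
          ⟨nV.conj_mem u hu.1 t, mcs.2 (cmm t g tg u hu.1 (mcs.1 hu.2))⟩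
          (inv_mem hu) (fun e' => e ?_) (mt (inv_mem_iff (H := N)).1 e)
        rwa [show t * u * t⁻¹ = u by simpa using tN _ e'] at e'
  have sH' : ∀ u ∈ H, s⁻¹ * u * s ∈ H := fun u hu => by
    have := sH _ (sH u hu)
    rwa [← mul_assoc, ← mul_assoc, ss, mul_assoc, ← mul_inv_rev, ss, inv_inv] at this
  have fH : ∀ u ∈ H, f * u * f⁻¹ ∈ H := fun u hu => by simpa using H.mul_mem (NH hu.1.2) hu
  have gH : ∀ u ∈ H, g * u * g⁻¹ ∈ H := fun u hu => by simpa using H.mul_mem (NH hu.2.2) hu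
  have kH : ∀ u ∈ H, (s⁻¹ * f * s) * u * (s⁻¹ * f * s)⁻¹ ∈ H := fun u hu => by
    simpa [mul_assoc] using sH' _ (fH _ (sH u hu))
  obtain ⟨y, y1, y2, y3⟩ : ∃ y ∈ V, s * y * s⁻¹ = y ∧ f * y * (g * y) * (s⁻¹ * f * s * y) ∈ H := by
    by_cases e : f * g * (s⁻¹ * f * s) ∈ H
    · exact ⟨1, V.one_mem, by simp, by simpa using e⟩
    refine ⟨x, x1, x2, ?_⟩
    generalize s⁻¹ * f * s = k at *
    have a1 := nV.conj_mem x x1 k⁻¹
    have a2 := nV.conj_mem _ (nV.conj_mem x x1 g⁻¹) k⁻¹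
    have := H.mul_mem (idx2 HV (by omega) ff a2 e fun e => x3 (by
      simpa [mul_assoc] using gH _ (kH _ e))) (idx2 HV (by omega) a1 x1 (fun e => x3 (by
      simpa [mul_assoc] using kH _ e)) x3)
    simpa [mul_assoc] using this
  set a := f * y with ha
  set b := g * y with hb
  clear_value a b
  have ab : s * a * s⁻¹ = b := by rw [hb, ← y2, ha, hg]; group
  have ak : s⁻¹ * f * s * y = s⁻¹ * a * s := by rw [ha]; nth_rw 2 [← y2]; group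
  rw [ak] at y3
  have av : ∀ u ∈ V, a * u * a⁻¹ = f * u * f⁻¹ := fun u hu => by
    nth_rw 2 [← vc' y y1 u hu]; rw [ha]; group
  have bv : ∀ u ∈ V, b * u * b⁻¹ = g * u * g⁻¹ := fun u hu => by
    nth_rw 2 [← vc' y y1 u hu]; rw [hb]; group
  have a2 : a ^ 2 ∈ V := by
    simpa [ha, pow_two, mul_assoc] using V.mul_mem (V.mul_mem (nV.conj_mem y y1 f) f2) y1
  have a2L : a ^ 2 ∈ L := ⟨a2, mcs.2 (by rw [← av _ a2]; group)⟩
  have b2 : b ^ 2 ∈ H := by rw [← ab, conj_pow]; exact sH _ (LH a2L)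
  have aH : ∀ u ∈ H, a * u * a⁻¹ * u⁻¹ ∈ N := fun u hu => by rw [av u (HV hu)]; exact hu.1.2
  have bH : ∀ u ∈ H, b * u * b⁻¹ * u⁻¹ ∈ N := fun u hu => by rw [bv u (HV hu)]; exact hu.2.2
  have aN : ∀ n ∈ N, a⁻¹ * n * a = n := fun n hn => by
    rw [fi a a2 n (NV hn), av n (NV hn), mcs.1 hn.1.2]
  have bN : ∀ n ∈ N, b⁻¹ * n * b = n := fun n hn => by
    rw [fi b (HV b2) n (NV hn), bv n (NV hn), mcs.1 hn.2]
  have w1 : a * b * a⁻¹ * b⁻¹ ∈ N := by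
    generalize hh : a * b * (s⁻¹ * a * s) = z at y3
    have w0 : a * b * a⁻¹ * b⁻¹ ∈ H := by
      have e1 : (s⁻¹ * a * s)⁻¹ * z * (s⁻¹ * a * s) ∈ H := by
        have e := sH _ y3
        have := H.mul_mem (NH (aH _ e)) e
        rw [inv_mul_cancel_right, ← fi a a2 _ (HV e)] at this
        simpa [mul_assoc] using sH' _ this
      have e2 := H.mul_mem (NH (bH _ (H.inv_mem (LH a2L)))) (H.inv_mem (LH a2L))
      rw [inv_mul_cancel_right, ← fi b (HV b2) _ (V.inv_mem a2)] at e2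
      have := H.mul_mem (H.mul_mem (H.mul_mem (H.mul_mem y3 e1) (H.inv_mem (sH' _ (LH a2L)))) e2)
        (H.inv_mem b2)
      rw [← hh] at this
      simpa [pow_two, mul_assoc] using this
    refine Hs' _ w0 ?_
    have e1 := bH _ w0
    have e2 := aH _ w0
    rw [← fi b (HV b2) _ (HV w0), ← aN _ e1] at e1
    rw [← fi a a2 _ (HV w0)] at e2
    have e3 := bH _ y3
    rw [← bN _ e3] at e3
    rw [← aN _ e3] at e3
    convert N.mul_mem (N.mul_mem e3 e1) e2 using 1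
    have e4 : s * b * s⁻¹ = s⁻¹ * a * s := by
      rw [← ab, ← mul_assoc, ← mul_assoc, ss, mul_assoc, ← mul_inv_rev, ss, inv_inv]
    calc _ = (s * a * s⁻¹) * (s * b * s⁻¹) * (s * a * s⁻¹)⁻¹ * (s * b * s⁻¹)⁻¹ * (a * b * a⁻¹ * b⁻¹)⁻¹ := by
          group
      _ = _ := by rw [ab, e4, ← hh]; group
  have a2N : a ^ 2 ∈ N := ⟨a2L, mcs.2 (by
    rw [← bv _ a2]
    calc _ = (a * b * a⁻¹ * b⁻¹)⁻¹ * (a⁻¹ * (a * b * a⁻¹ * b⁻¹) * a)⁻¹ *
          ((a⁻¹ * (a * b * a⁻¹ * b⁻¹) * a) * a * (a * b * a⁻¹ * b⁻¹)⁻¹ * a) := by rw [pow_two]; group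
      _ = _ := by
        rw [aN _ w1, ← mul_inv_rev, ← pow_two, v2 _ (NV w1), inv_one, one_mul, vi _ (NV w1)]
        calc _ = (a * b * a⁻¹ * b⁻¹) * a * a * (a⁻¹ * (a * b * a⁻¹ * b⁻¹) * a) := by group
          _ = (a * b * a⁻¹ * b⁻¹) * a ^ 2 * (a * b * a⁻¹ * b⁻¹) := by rw [aN _ w1, pow_two]; group
          _ = _ := by rw [vc _ (NV w1) _ a2, mul_assoc, ← pow_two, v2 _ (NV w1), mul_one])⟩
  have mq : ∀ z : G, z ∈ V ↔ (z : G ⧸ V) = 1 := fun z => (QuotientGroup.eq_one_iff z).symm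
  have ta : t * a * t⁻¹ * a⁻¹ ∈ V := by
    rw [mq] at tf y1 ⊢
    simpa [ha, y1] using tf
  have taL : t * a * t⁻¹ * a⁻¹ ∈ L := ⟨ta, mcs.2 (by
    rw [← av _ ta]
    calc _ = (t * a * t⁻¹ * a⁻¹)⁻¹ * (t * a ^ 2 * t⁻¹) * (a ^ 2)⁻¹ := by rw [pow_two]; group
      _ = _ := by rw [tN _ a2N, vi _ ta]; group)⟩
  obtain ⟨z, z1, z2, z3⟩ : ∃ z ∈ V, s * z * s⁻¹ = z ∧ z * t * a * (z * t)⁻¹ * a⁻¹ ∈ N := by
    by_cases e : t * a * t⁻¹ * a⁻¹ ∈ N
    · exact ⟨1, V.one_mem, by simp, by simpa using e⟩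
    refine ⟨x, x1, x2, ?_⟩
    have := idx2 (K := N) (M := L) inf_le_left (by omega) taL (L.inv_mem ⟨V.mul_mem (nV.conj_mem x x1 f)
      (V.inv_mem x1), mcs.2 (trf f f2 x x1)⟩) e (mt (inv_mem_iff (H := N)).1 x4)
    rw [← av x x1, mul_inv_rev, inv_inv, ← mul_assoc, ← vc x x1 _ ta] at this
    simpa [mul_assoc] using this
  set c := z * t with hc
  clear_value c
  have sc : s * c * s⁻¹ = c := by rw [hc]; nth_rw 2 [← z2, ← ts]; group
  have cv : ∀ u ∈ V, c * u * c⁻¹ = t * u * t⁻¹ := fun u hu => by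
    rw [← vc' z z1 _ (nV.conj_mem u hu t), hc]; group
  have c2 : c ^ 2 ∈ V := by
    simpa [hc, pow_two, mul_assoc] using V.mul_mem (V.mul_mem z1 (nV.conj_mem z z1 t)) t2
  have c2N : c ^ 2 ∈ N := by
    refine Hs.le ⟨by_contra fun e => t1 (hC ?_), mcs.2 (by rw [← conj_pow, sc])⟩
    have e1 : t * c ^ 2 * t⁻¹ = c ^ 2 := by rw [← cv _ c2]; group
    have i3 : ∀ u ∈ V, u ∈ H ∨ u * c ^ 2 ∈ H := fun u hu => or_iff_not_imp_left.2 fun e' =>
      idx2 HV (by omega) hu c2 e' e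
    have e2 : f * c ^ 2 * f⁻¹ * (c ^ 2)⁻¹ ∈ centralizer {t} := mul_mem
      (mcs.2 (cmm f t (by simpa [mul_assoc] using V.inv_mem tf) _ c2 e1)) (inv_mem (mcs.2 e1))
    have e3 : L ≤ centralizer {t} := fun u hu => by
      by_cases e' : u ∈ N
      · exact mcs.2 (tN u e')
      have := idx2 (K := N) (M := L) inf_le_left (by omega) hu ⟨V.mul_mem (nV.conj_mem _ c2 f)
        (V.inv_mem c2), mcs.2 (trf f f2 _ c2)⟩ e' (trN _ c2 i3)
      simpa only [mul_inv_cancel_right] using mul_mem (mcs.2 (tN _ this)) (inv_mem e2)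
    have e4 : H ≤ centralizer {t} := H8.1.ge.trans (sup_le e3 fun u hu => mcs.2 (by
      have := mcs.1 (e3 (x := s⁻¹ * u * s) ⟨by simpa using nV.conj_mem u hu.1 s⁻¹, mcs.2 (by
        nth_rw 2 [← mcs.1 hu.2]; rw [hg]; group)⟩)
      calc _ = s * (t * (s⁻¹ * u * s) * t⁻¹) * s⁻¹ := by nth_rw 1 2 [← ts]; group
        _ = u := by rw [this]; group))
    refine mem_centralizer_iff.2 fun u hu => mem_centralizer_singleton_iff.1 ((i3 u hu).elim (e4 ·) fun e' => ?_)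
    simpa using mul_mem (e4 e') (inv_mem (mcs.2 e1))
  have n3 : b * a⁻¹ ∉ V := fun e => hn fun u hu => mcs.2 (by
    calc _ = b * a⁻¹ * (a * u * a⁻¹) * (b * a⁻¹)⁻¹ := by rw [← bv u hu.1]; group
      _ = u := by rw [vc' _ e _ (nV.conj_mem u hu.1 a), av u hu.1, mcs.1 hu.2])
  have n5 : ∀ d, s * d * s⁻¹ = d → d * a⁻¹ ∉ V := fun d hd e => n3 (by
    have := V.mul_mem (V.inv_mem (nV.conj_mem _ e s)) e
    rw [← ab]
    convert this using 1
    nth_rw 2 [← hd]; group)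
  refine fin3 h NH HV (fun k hk => by simp [v2 k (HV hk)]) ?_ a2N (by
      rw [← ab, conj_pow]; exact sN' _ a2N) c2N aH bH (fun k hk => by rw [cv k (HV hk)]; exact tH k hk)
    (by simpa [mul_assoc] using N.inv_mem w1) z3 (by
      convert sN' _ z3 using 1
      rw [← ab]; nth_rw 1 2 [← sc]; group) (fun e => n5 1 (by simp) (by simpa using e))
    (fun e => n5 1 (by simp) (by simpa [← ab, mul_assoc] using nV.conj_mem _ e s⁻¹)) n3
    (fun e => t1 (by simpa [hc] using V.mul_mem (V.inv_mem z1) e)) (n5 c sc) (fun e => n5 c sc (by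
      convert nV.conj_mem _ e s⁻¹ using 1
      rw [← ab]; nth_rw 2 [← sc]; group)) fun e => n5 c⁻¹ (by nth_rw 2 [← sc]; group) ?_
  · have := (N.subgroupOf H).card_mul_index
    rw [Nat.card_congr (subgroupOfEquivOfLe NH).toEquiv, N2] at this
    rw [relIndex]; omega
  · convert nV.conj_mem _ (V.inv_mem (V.mul_mem e (HV y3))) (c⁻¹ * s) using 1
    calc _ = c⁻¹ * a⁻¹ * (s * c * s⁻¹)⁻¹ * c := by rw [sc]; group
      _ = _ := by group

theorem no_s6 [Finite G] (h : Sect 2 4 G) {V : Subgroup G} [nV : V.Normal] (v2 : ∀ a ∈ V, a ^ 2 = 1)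
    (hC : centralizer (V : Set G) ≤ V) (ψ : Equiv.Perm (Fin 6) →* G ⧸ V) (hψ : Function.Injective ψ) :
    False := by
  have vc : ∀ a ∈ V, ∀ b ∈ V, a * b = b * a := fun a ha b hb => by
    have := comm_mem (N := ⊥) (K := V) (by simpa using v2) ha hb
    rwa [mem_bot, mul_inv_eq_one, mul_inv_eq_iff_eq_mul] at this
  have vc' : ∀ a ∈ V, ∀ b ∈ V, a * b * a⁻¹ = b := fun a ha b hb => by rw [vc a ha b hb]; group
  have hV : IsPGroup 2 V := fun x => ⟨1, Subtype.ext (v2 x x.2)⟩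
  have mq : ∀ (z : G) a, (z : G ⧸ V) = ψ a → (z ∈ V ↔ a = 1) := fun z a e => by
    rw [← QuotientGroup.eq_one_iff, e, map_eq_one_iff _ hψ]
  have k5 : ∀ (r : G) a, (r : G ⧸ V) = ψ a → a ≠ 1 → a ^ 5 = 1 → (∀ x ∈ V, r ^ 5 * x * (r ^ 5)⁻¹ = x) ∧
      Nat.card V = 16 ∧ ∀ x ∈ V, r * x * r⁻¹ = x → x = 1 := fun r a e a1 a5 => by
    have := vc' _ ((mq (r ^ 5) (a ^ 5) (by simp [e])).2 a5)
    exact ⟨this, fpf5 hV (by simpa using sect2 h (N := ⊥) (K := V) bot_le (by simpa using v2))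
      (fun x hx => nV.conj_mem x hx r) this fun e' => a1 ((mq r a e).1 (hC fun u hu =>
        mem_centralizer_singleton_iff.1 (e' hu)))⟩
  let f0 : Equiv.Perm (Fin 6) := .swap 0 1 * .swap 2 3
  obtain ⟨f, hf⟩ := QuotientGroup.mk_surjective (ψ f0)
  let r0 : Equiv.Perm (Fin 6) := .swap 0 1 * .swap 1 2 * .swap 2 4 * .swap 4 3
  obtain ⟨r, hr⟩ := QuotientGroup.mk_surjective (ψ r0)
  obtain ⟨r1, r2, r3⟩ := k5 r _ hr (by decide) (by decide +kernel)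
  have f2 : f ^ 2 ∈ V := (mq _ (f0 ^ 2) (by simp [hf])).2 (by decide +kernel)
  obtain ⟨L4, tr⟩ := mod5 vc v2 r2 (fun x hx => nV.conj_mem x hx f) (fun x hx => nV.conj_mem x hx r) r1
    (vc' _ f2) (vc' _ ((mq _ (f0 * r0 * f0⁻¹ * r0) (by simp [hf, hr])).2 (by decide +kernel))) r3
  have key : ∀ a b : Equiv.Perm (Fin 6), a ^ 3 = 1 → f0 * (a * f0 * a⁻¹) * (a⁻¹ * f0 * a) = 1 →
      (a * f0 * a⁻¹) * f0 * (a * f0 * a⁻¹)⁻¹ * f0⁻¹ = 1 → b ^ 2 = 1 → b⁻¹ * (a * b * a⁻¹) = 1 →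
      b * f0 * b⁻¹ * f0⁻¹ = 1 → b ≠ 1 → ∃ s : G, (s : G ⧸ V) = ψ a ∧
      ∀ u ∈ V ⊓ centralizer {f}, s⁻¹ * u * s ∈ V ⊓ centralizer {f} := fun a b a1 a2 a3 a4 a5 a6 a7 => by
    obtain ⟨s, hs, s3⟩ := lift_odd hV (by decide : Odd 3) (ψ a) (by rw [← map_pow, a1, map_one])
    obtain ⟨t, ht⟩ := QuotientGroup.mk_surjective (ψ b)
    obtain ⟨t', t1, t2⟩ := exists_fixed_mem_coset (a := MulAut.conj s) (N := V) (g := t) (k := 1)
      (fun x => ⟨fun e => by simpa [mul_assoc] using nV.conj_mem _ e s⁻¹, fun e => nV.conj_mem _ e s⟩)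
      ((mq _ _ (by simp [hs, ht])).2 a5) Nat.prime_three (by rw [← map_pow, pow_one, s3, map_one])
      (by rw [r2]; decide)
    have ht' := (QuotientGroup.eq.2 t1).symm.trans ht
    refine ⟨s, hs, fun u hu => ⟨by simpa using nV.conj_mem u hu.1 s⁻¹, mcs.2 ?_⟩⟩
    have := by_contra fun e => no6 h vc v2 r2 hC s3 f2 ((mq _ _ (by simp [hs, hf])).2 a2)
      ((mq _ _ (by simp [hs, hf])).2 a3) ((mq _ _ (by simp [ht'])).2 a4) t2
      ((mq _ _ (by simp [ht', hf])).2 a6) (mt (mq _ _ ht').1 a7) L4 tr e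
    nth_rw 2 [← mcs.1 (this hu)]
    group
  obtain ⟨s, hs, s1⟩ := key (.swap 0 1 * .swap 1 2) (.swap 4 5) (by decide +kernel) (by decide +kernel)
    (by decide +kernel) (by decide +kernel) (by decide +kernel) (by decide +kernel) (by decide +kernel)
  obtain ⟨s', hs', s2⟩ := key (.swap 0 2 * .swap 2 4 * .swap 1 3 * .swap 3 5) (f0 * .swap 4 5)
    (by decide +kernel) (by decide +kernel)
    (by decide +kernel) (by decide +kernel) (by decide +kernel) (by decide +kernel) (by decide +kernel)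
  obtain ⟨g1, -, g3⟩ := k5 (s * s')⁻¹ _ (by
    rw [QuotientGroup.mk_inv, QuotientGroup.mk_mul, hs, hs', ← map_mul, ← map_inv])
    (by decide +kernel) (by decide +kernel)
  have := sub_modEq (by norm_num : Nat.Prime 5) (V ⊓ centralizer {f}) (r := (s * s')⁻¹)
    (fun x hx => by simpa [mul_assoc] using s2 _ (s1 x hx)) fun x hx => g1 x hx.1
  rw [L4, eq_bot_iff.2 (show V ⊓ centralizer {f} ⊓ centralizer {(s * s')⁻¹} ≤ ⊥ from
    fun x hx => g3 x hx.1.1 (mcs.1 hx.2)), card_bot] at this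
  exact absurd this (by decide)

end Cfsg.Agent.GH4
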