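import Mathlib
import Cfsg.Agent.GH4.D

/-! Elements of order seven acting on small elementary abelian groups. -/

set_option autoImplicit false

namespace Cfsg.Agent.GH4

open Cfsg Subgroup Cfsg.Agent.PGrp

variable {G : Type*} [Group G]

theorem fixo {Q : Subgroup G} (hQ : IsPGroup 2 Q) {q : ℕ} (hq : Odd q) {r x u : G} (hr : r ^ q = 1)
    (hu : u ∈ Q) (e : r * x * r⁻¹ = x * u) (h : r * u * r⁻¹ = u) : u = 1 := by
  have e1 := conj_pow_eq e h q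
  obtain ⟨k, hk⟩ := hQ ⟨u, hu⟩
  have e2 : u ^ q = 1 := by simpa [hr] using e1.symm
  have e3 : u ^ 2 ^ k = 1 := congrArg Subtype.val hk
  have := pow_gcd_eq_one.2 ⟨e2, e3⟩
  rwa [Nat.Coprime.pow_right k (Nat.coprime_two_right.2 hq), pow_one] at this

theorem t7 [Finite G] {K : Subgroup G} {r : G} (h8 : Nat.card K = 8) (r7 : r ^ 7 = 1)
    (hf : ∀ x ∈ K, r * x * r⁻¹ = x → x = 1) {S : Set G} (hS : ∀ x ∈ S, r * x * r⁻¹ ∈ S)
    (hK : ∀ x ∈ K, r * x * r⁻¹ ∈ K) {x : G} (hx : x ∈ S) (xK : x ∈ K) (x1 : x ≠ 1) :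
    ∀ k ∈ K, k ≠ 1 → k ∈ S := by
  have e := fix_modEq (by norm_num : Nat.Prime 7) (S ∩ (K \ {1})) (r := r)
    (fun y hy => ⟨hS y hy.1, hK y hy.2.1, by simpa using hy.2.2⟩) (by simp [r7])
  rw [show S ∩ (K \ {1}) ∩ centralizer ({r} : Set G) = ∅ from Set.eq_empty_of_forall_notMem
    fun y hy => hy.1.2.2 (hf y hy.1.2.1 (mcs.1 hy.2)), Set.ncard_empty] at e
  have e1 : ((K : Set G) \ {1}).ncard = 7 := by
    rw [Set.ncard_sdiff_singleton_of_mem K.one_mem, ← Nat.card_coe_set_eq]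
    exact congrArg (· - 1) h8
  have e2 := Set.ncard_le_ncard (Set.inter_subset_right : S ∩ (K \ {1}) ⊆ _)
  have e3 := (Set.ncard_pos (s := S ∩ (K \ {1}))).2 ⟨x, hx, xK, x1⟩
  have e4 := Set.eq_of_subset_of_ncard_le (Set.inter_subset_right : S ∩ (K \ {1}) ⊆ _) (by
    unfold Nat.ModEq at e; omega)
  exact fun k hk k1 => (e4.ge ⟨hk, k1⟩).1

theorem t7' [Finite G] {K S : Subgroup G} {r : G} (h8 : Nat.card K = 8) (r7 : r ^ 7 = 1)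
    (hf : ∀ x ∈ K, r * x * r⁻¹ = x → x = 1) (hS : ∀ x ∈ S, r * x * r⁻¹ ∈ S)
    (hK : ∀ x ∈ K, r * x * r⁻¹ ∈ K) {x : G} (hx : x ∈ S) (xK : x ∈ K) (x1 : x ≠ 1) : K ≤ S :=
  fun k hk => by
    by_cases h : k = 1
    · exact h ▸ S.one_mem
    · exact t7 h8 r7 hf hS hK hx xK x1 k hk h

theorem vcomm {V : Subgroup G} (v2 : ∀ a ∈ V, a ^ 2 = 1) : ∀ a ∈ V, ∀ b ∈ V, a * b = b * a :=
  fun a ha b hb => by
    have := comm_mem (N := ⊥) (K := V) (by simpa using v2) ha hb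
    rwa [mem_bot, mul_inv_eq_one, mul_inv_eq_iff_eq_mul] at this

theorem vinv {a : G} (h : a ^ 2 = 1) : a⁻¹ = a := inv_eq_of_mul_eq_one_left (by rw [← pow_two, h])

theorem vp {V : Subgroup G} (v2 : ∀ a ∈ V, a ^ 2 = 1) : IsPGroup 2 V :=
  fun x => ⟨1, Subtype.ext (v2 x x.2)⟩

theorem orb1 [Finite G] {V : Subgroup G} {r : G} (v2 : ∀ a ∈ V, a ^ 2 = 1) (h16 : Nat.card V ≤ 16)
    (r7 : r ^ 7 = 1) (hS : ∀ x ∈ V, r * x * r⁻¹ ∈ V) (hn : ¬ V ≤ centralizer {r}) :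
    ∃ K ≤ V, Nat.card K = 8 ∧ (∀ x ∈ K, r * x * r⁻¹ ∈ K) ∧ (∀ x ∈ K, r * x * r⁻¹ = x → x = 1) ∧
      (K = V ∨ Nat.card V = 16 ∧ ∃ e ∈ V, e ∉ K ∧ r * e * r⁻¹ = e ∧
        ∀ v ∈ V, r * v * r⁻¹ = v → v = 1 ∨ v = e) := by
  have vc := vcomm v2
  have e := sub_modEq (by norm_num : Nat.Prime 7) V hS (by simp [r7])
  obtain ⟨a, b, b1, b2, b3, b4⟩ := pows (vp v2) h16 (K := V ⊓ centralizer {r})
    (lt_of_le_of_ne inf_le_left fun e => hn (e.ge.trans inf_le_right))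
  rw [b3, b4] at e
  obtain ⟨rfl, rfl⟩ | ⟨rfl, rfl⟩ : a = 3 ∧ b = 0 ∨ a = 4 ∧ b = 1 := by
    interval_cases a <;> interval_cases b <;> first | omega | exact absurd e (by decide)
  · exact ⟨V, le_rfl, b3, hS, fun x hx e => mem_bot.1 ((card_eq_one.1 b4).le ⟨hx, mcs.2 e⟩), Or.inl rfl⟩
  let f : V →* G := MonoidHom.mk' (fun v => (v : G)⁻¹ * (r * v * r⁻¹)) fun a b => by
    rw [coe_mul, ← mul_assoc ((a : G)⁻¹ * _), vc _ (V.mul_mem (V.inv_mem a.2) (hS a a.2)) _ (V.inv_mem b.2)]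
    group
  have f1 : f.ker = (V ⊓ centralizer {r}).subgroupOf V := Subgroup.ext fun v =>
    ⟨fun h => ⟨v.2, mcs.2 (inv_mul_eq_one.1 h).symm⟩, fun h => inv_mul_eq_one.2 (mcs.1 h.2).symm⟩
  have f2 := f.ker.card_mul_index
  rw [index_ker, f1, Nat.card_congr (subgroupOfEquivOfLe inf_le_left).toEquiv, b3, b4] at f2
  have f3 : f.range ≤ V := by rintro _ ⟨v, rfl⟩; exact V.mul_mem (V.inv_mem v.2) (hS v v.2)
  have f4 : ∀ x ∈ f.range, r * x * r⁻¹ = x → x = 1 := by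
    rintro _ ⟨v, rfl⟩ h
    exact fixo (vp v2) (by decide : Odd 7) r7 (f3 ⟨v, rfl⟩) (x := v) (by simp [f]) h
  obtain ⟨e, e1, e2⟩ := (Nat.card_eq_two_iff' (1 : (V ⊓ centralizer {r} : Subgroup G))).1 b4
  refine ⟨f.range, f3, by omega, ?_, f4, Or.inr ⟨b3, e, e.2.1, fun h => e1 (Subtype.ext
    (f4 _ h (mcs.1 e.2.2))), mcs.1 e.2.2, fun v hv h => or_iff_not_imp_left.2 fun h1 =>
      congrArg Subtype.val (e2 ⟨v, hv, mcs.2 h⟩ fun h => h1 (congrArg Subtype.val h))⟩⟩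
  rintro _ ⟨v, rfl⟩
  exact ⟨⟨_, hS v v.2⟩, by simp [f, mul_assoc]⟩

/-- The standing hypothesis. -/
structure H7 (Q : Subgroup G) (r : G) : Prop where
  p : IsPGroup 2 Q
  s : ∀ C : Subgroup G, C.Normal → Q ≤ C → C ≤ Q ∨ C = ⊤
  i : Q.index = 168
  sect : Sect 2 4 G
  r7 : r ^ 7 = 1
  rQ : r ∉ Q

theorem mem_mq {N Q : Subgroup G} [N.Normal] (h : N ≤ Q) {x : G} :
    (x : G ⧸ N) ∈ Q.map (QuotientGroup.mk' N) ↔ x ∈ Q :=
  ⟨fun ⟨y, hy, e⟩ => by simpa using Q.mul_mem hy (h (QuotientGroup.eq.1 e)), fun hx => ⟨x, hx, rfl⟩⟩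

theorem H7.quot {Q : Subgroup G} {r : G} (h : H7 Q r) {N : Subgroup G} [N.Normal] (hN : N ≤ Q) :
    H7 (Q.map (QuotientGroup.mk' N)) (r : G ⧸ N) where
  p := h.p.map _
  s := fun C hC hQ => (h.s (C.comap (QuotientGroup.mk' N)) inferInstance (map_le_iff_le_comap.1 hQ)).imp
    (fun e x hx => by
      obtain ⟨x, rfl⟩ := QuotientGroup.mk_surjective x
      exact ⟨x, e hx, rfl⟩) fun e => eq_top_iff.2 fun x _ => by
      obtain ⟨x, rfl⟩ := QuotientGroup.mk_surjective x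
      exact e.ge (mem_top x)
  i := (index_map_eq _ (QuotientGroup.mk'_surjective N) (by rwa [QuotientGroup.ker_mk'])).trans h.i
  sect := h.sect.quotient N
  r7 := by rw [← QuotientGroup.mk_pow, h.r7, QuotientGroup.mk_one]
  rQ := mt (mem_mq hN).1 h.rQ

theorem two_dvd {Q C : Subgroup G} [Q.Normal] {y : G} (hy : y ∈ C) (y1 : y ∉ Q) (y2 : y ^ 2 ∈ Q) :
    2 ∣ Q.relIndex C := by
  have : orderOf ((⟨y, hy⟩ : C) : C ⧸ Q.subgroupOf C) = 2 := orderOf_eq_prime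
    ((QuotientGroup.eq_one_iff (N := Q.subgroupOf C) ((⟨y, hy⟩ : C) ^ 2)).2 y2)
    (mt (QuotientGroup.eq_one_iff _).1 y1)
  exact this ▸ orderOf_dvd_natCard _

theorem H7.top {Q : Subgroup G} {r : G} (h : H7 Q r) {C : Subgroup G} [hC : C.Normal] (h1 : Q ≤ C)
    {y : G} (hy : y ∈ C) (y1 : y ∉ Q) : C = ⊤ := (h.s C hC h1).resolve_left fun e => y1 (e hy)

theorem orb2 [Finite G] {Q V K : Subgroup G} [Q.Normal] [nV : V.Normal] {r e : G} (h : H7 Q r)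
    (v2 : ∀ a ∈ V, a ^ 2 = 1) (h16 : Nat.card V = 16) (hc : ∀ q ∈ Q, ∀ v ∈ V, q * v = v * q)
    (KV : K ≤ V) (h8 : Nat.card K = 8) (hK : ∀ x ∈ K, r * x * r⁻¹ ∈ K)
    (hf : ∀ x ∈ K, r * x * r⁻¹ = x → x = 1) (eV : e ∈ V) (eK : e ∉ K) (re : r * e * r⁻¹ = e)
    (he : ∀ v ∈ V, r * v * r⁻¹ = v → v = 1 ∨ v = e) (hg : ∃ g, g * e * g⁻¹ ≠ e) :
    K.Normal ∧ ∀ y ∉ Q, y ^ 2 ∈ Q → ∀ v ∈ V, y * v * y⁻¹ = v → v ∈ K := by
  set O := MulAction.orbit (ConjAct G) e with hO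
  have mO : ∀ x, x ∈ O ↔ ∃ g, g * e * g⁻¹ = x := fun x => Iff.rfl
  have e1 : e ≠ 1 := fun h => eK (h ▸ K.one_mem)
  have cO : ∀ g, ∀ x ∈ O, g * x * g⁻¹ ∈ O := fun g x hx => by
    obtain ⟨a, rfl⟩ := (mO x).1 hx
    exact (mO _).2 ⟨g * a, by group⟩
  have OV : O ⊆ V \ {1} := fun x hx => by
    obtain ⟨a, rfl⟩ := (mO x).1 hx
    exact ⟨nV.conj_mem e eV a, by simpa using e1⟩
  have eO : e ∈ O := (mO e).2 ⟨1, by simp⟩
  have o1 : (centralizer {e}).index = O.ncard := by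
    rw [centralizer_eq_comap_stabilizer]
    exact (index_comap_of_surjective _ ConjAct.toConjAct.surjective).trans
      (MulAction.index_stabilizer (ConjAct G) e)
  have QC : Q ≤ centralizer {e} := fun q hq => mem_centralizer_singleton_iff.2 (hc q hq e eV)
  have o2 := relIndex_mul_index QC
  have o3 := fix_modEq (by norm_num : Nat.Prime 7) O (cO r) (by simp [h.r7])
  rw [show O ∩ centralizer ({r} : Set G) = {e} from Set.ext fun x => ⟨fun hx =>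
    (he x (OV hx.1).1 (mcs.1 hx.2)).resolve_left (OV hx.1).2, by
      rintro rfl; exact ⟨eO, mcs.2 re⟩⟩, Set.ncard_singleton] at o3
  have o4 := Set.ncard_le_ncard OV
  rw [Set.ncard_sdiff_singleton_of_mem V.one_mem, ← Nat.card_coe_set_eq (V : Set G)] at o4
  have o5 : 1 < O.ncard := hg.elim fun g hg => (Set.one_lt_ncard (Set.toFinite O)).2
    ⟨_, cO g e eO, e, eO, hg⟩
  rw [h.i, o1] at o2
  have o6 : O.ncard = 8 := by
    have : O.ncard ≠ 15 := fun e => by rw [e] at o2; omega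
    unfold Nat.ModEq at o3
    change _ ≤ Nat.card V - 1 at o4
    omega
  have nf : ∀ y ∉ Q, y ^ 2 ∈ Q → ∀ v ∈ O, y * v * y⁻¹ ≠ v := fun y y1 y2 v hv e' => by
    obtain ⟨a, rfl⟩ := (mO v).1 hv
    have := two_dvd (Q := Q) (C := centralizer {e}) (y := a⁻¹ * y * a) (mem_centralizer_singleton_iff.2 (by
      calc _ = a⁻¹ * (y * (a * e * a⁻¹) * y⁻¹) * y * a := by group
        _ = _ := by rw [e']; group)) (fun h => y1 (by
      simpa [mul_assoc] using Normal.conj_mem ‹_› _ h a)) (by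
      simpa [pow_two, mul_assoc] using Normal.conj_mem ‹_› _ y2 a⁻¹)
    rw [o6] at o2
    omega
  have OK : O ⊆ V \ K := fun x hx => ⟨(OV hx).1, fun xK => by
    have k1 := t7 h8 h.r7 hf (cO r) hK hx xK (OV hx).2
    obtain ⟨y0, hy⟩ := exists_prime_orderOf_dvd_card' (G := G ⧸ Q) 2 (by
      rw [← index_eq_card, h.i]; decide)
    obtain ⟨y, rfl⟩ := QuotientGroup.mk_surjective y0
    have y1 : y ∉ Q := fun e => by rw [(QuotientGroup.eq_one_iff y).2 e] at hy; simp at hy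
    have y2 : y ^ 2 ∈ Q := (QuotientGroup.eq_one_iff _).1 (by
      rw [QuotientGroup.mk_pow, ← hy, pow_orderOf_eq_one])
    obtain ⟨T, T1, T2, -⟩ := trace (vcomm v2) v2 (fun x hx => nV.conj_mem x hx y)
      fun x hx => by rw [hc _ y2 x hx]; group
    have T3 := card_le_of_le T1
    have T4 : ∀ a ∈ V ⊓ centralizer {y}, a ≠ 1 → a ∉ K := fun a ha a1 aK => nf y y1 y2 a (k1 a aK a1)
      (mcs.1 ha.2)
    letI := Fintype.ofFinite (V ⊓ centralizer {y} : Subgroup G)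
    obtain ⟨a, b, c, ab, ac, bc⟩ := Fintype.two_lt_card_iff.1 ((show 2 < Nat.card (V ⊓ centralizer {y} :
      Subgroup G) by nlinarith).trans_eq Nat.card_eq_fintype_card)
    have T5 : ∀ a b : (V ⊓ centralizer {y} : Subgroup G), a ≠ b → (a : G)⁻¹ * b ∉ K := fun a b ab =>
      T4 _ (mul_mem (inv_mem a.2) b.2) fun e => ab (Subtype.ext (inv_mul_eq_one.1 e))
    have := idx2 KV (by omega) (mul_mem (inv_mem a.2.1) b.2.1) (mul_mem (inv_mem b.2.1) c.2.1)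
      (T5 a b ab) (T5 b c bc)
    exact T5 a c ac (by simpa [mul_assoc] using this)⟩
  have OE := Set.eq_of_subset_of_ncard_le OK (by
    rw [Set.ncard_sdiff KV, ← Nat.card_coe_set_eq (V : Set G), ← Nat.card_coe_set_eq (K : Set G)]
    change Nat.card V - Nat.card K ≤ _
    omega)
  refine ⟨⟨fun k hk g => by_contra fun e' => (OK ?_).2 hk⟩, fun y y1 y2 v hv e' => by_contra fun e'' =>
    nf y y1 y2 v (OE.ge ⟨hv, e''⟩) e'⟩
  simpa [mul_assoc] using cO g⁻¹ _ (OE.ge ⟨nV.conj_mem k (KV hk) g, e'⟩)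

/-- Coordinates. -/
abbrev M8 := Multiplicative (Fin 3 → ZMod 2)

/-- An automorphism of order three. -/
def sg8 : MulAut M8 where
  toFun v := .ofAdd ![v.toAdd 0, v.toAdd 2, v.toAdd 1 + v.toAdd 2]
  invFun v := .ofAdd ![v.toAdd 0, v.toAdd 1 + v.toAdd 2, v.toAdd 1]
  left_inv := by decide
  right_inv := by decide
  map_mul' := by decide

/-- A transvection. -/
def ta8 : MulAut M8 where
  toFun v := .ofAdd ![v.toAdd 0 + v.toAdd 1, v.toAdd 1, v.toAdd 2]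
  invFun v := .ofAdd ![v.toAdd 0 + v.toAdd 1, v.toAdd 1, v.toAdd 2]
  left_inv := by decide
  right_inv := by decide
  map_mul' := by decide

theorem coord [Finite G] {Q A B : Subgroup G} [Q.Normal] [A.Normal] [B.Normal] {r : G} (h : H7 Q r)
    (BA : B ≤ A) (h8 : B.relIndex A = 8) (a2 : ∀ a ∈ A, a ^ 2 ∈ B)
    (hc : ∀ q ∈ Q, ∀ a ∈ A, q * a * q⁻¹ * a⁻¹ ∈ B) (hn : ∃ a ∈ A, r * a * r⁻¹ * a⁻¹ ∉ B) :
    ∃ (f : G →* MulAut M8) (κ : A →* M8), Function.Surjective f ∧ Function.Surjective κ ∧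
      (∀ g, f g = 1 ↔ g ∈ Q) ∧ (∀ a, κ a = 1 ↔ (a : G) ∈ B) ∧
      ∀ g a, κ (MulAut.conjNormal g a) = f g (κ a) := by
  let π := QuotientGroup.mk' B
  let W := A.map π
  haveI : W.Normal := Normal.map ‹_› π (QuotientGroup.mk'_surjective B)
  have w2 : ∀ w ∈ W, w ^ 2 = 1 := by
    rintro _ ⟨a, ha, rfl⟩
    exact (QuotientGroup.eq_one_iff (a ^ 2)).2 (a2 a ha)
  haveI : IsMulCommutative W := ⟨⟨fun a b => Subtype.ext (vcomm w2 a a.2 b b.2)⟩⟩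
  obtain ⟨n, ⟨e⟩⟩ := BG.RepGlue.exists_mulEquiv (p := 2) (V := W) fun w => Subtype.ext (w2 w w.2)
  obtain rfl : n = 3 := by
    have := BG.RepGlue.card_of_mulEquiv e
    rw [← relIndex_ker, QuotientGroup.ker_mk', h8] at this
    exact (Nat.pow_right_injective (le_refl 2) (show 2 ^ 3 = 2 ^ n from this)).symm
  let f : G →* MulAut M8 := (MulAut.congr e).toMonoidHom.comp (MulAut.conjNormal.comp π)
  let κ : A →* M8 := e.toMonoidHom.comp (π.subgroupMap A)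
  have k1 : ∀ a, κ a = 1 ↔ (a : G) ∈ B := fun a => by
    simp only [κ, MonoidHom.comp_apply, MulEquiv.coe_toMonoidHom, map_eq_one_iff _ e.injective]
    exact Subtype.ext_iff.trans (QuotientGroup.eq_one_iff _)
  have k2 : ∀ g a, κ (MulAut.conjNormal g a) = f g (κ a) := fun g a => by
    simp only [κ, f, MonoidHom.comp_apply, MulEquiv.coe_toMonoidHom, MulAut.congr_apply,
      MulEquiv.trans_apply, MulEquiv.symm_apply_apply]
    exact congrArg e (Subtype.ext (map_mul π _ _ |>.trans (by simp [π]; rfl)))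
  have k3 : Function.Surjective κ := e.surjective.comp (π.subgroupMap_surjective A)
  have k4 : ∀ g, f g = 1 ↔ ∀ a ∈ A, g * a * g⁻¹ * a⁻¹ ∈ B := fun g =>
    ⟨fun h a ha => (k1 (MulAut.conjNormal g ⟨a, ha⟩ * (⟨a, ha⟩ : A)⁻¹)).1 (by simp [k2, h]), fun h => by
      ext1 v
      obtain ⟨a, rfl⟩ := k3 v
      have := (k1 (MulAut.conjNormal g a * a⁻¹)).2 (h a a.2)
      rwa [map_mul, map_inv, k2, mul_inv_eq_one] at this⟩
  have k5 : f.ker = Q := by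
    have : Q ≤ f.ker := fun q hq => (k4 q).2 (hc q hq)
    exact le_antisymm ((h.s _ inferInstance this).resolve_right fun e => hn.elim fun a ha =>
      ha.2 ((k4 r).1 (e.ge (mem_top r)) a ha.1)) this
  refine ⟨f, κ, MonoidHom.range_eq_top.1 (eq_top_of_card_eq _ (le_antisymm (card_le_card_group _) ?_)), k3,
    fun g => k5 ▸ Iff.rfl, k1, k2⟩
  rw [← index_ker, k5, h.i]
  obtain ⟨φ, hφ⟩ := exists_autMatrix (p := 2) (V := M8) (n := 3) inferInstance (by decide) (by simp)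
  refine Nat.le_of_dvd (by norm_num) ((card_dvd_card_GL φ hφ).trans ?_)
  rw [Matrix.card_GL_field]; simp [Fin.prod_univ_succ]

set_option synthInstance.maxSize 2000 in
theorem glc [Finite G] {Q A B : Subgroup G} [Q.Normal] [nA : A.Normal] [B.Normal] {r : G} (h : H7 Q r)
    (BA : B ≤ A) (h8 : B.relIndex A = 8) (a2 : ∀ a ∈ A, a ^ 2 ∈ B)
    (hc : ∀ q ∈ Q, ∀ a ∈ A, q * a * q⁻¹ * a⁻¹ ∈ B) (hn : ∃ a ∈ A, r * a * r⁻¹ * a⁻¹ ∉ B) :
    ∃ (s y y' : G) (L : Subgroup G), s ^ 3 = 1 ∧ s * y * s⁻¹ = y' ∧ y * y' * (s⁻¹ * y * s) = 1 ∧ y ∉ Q ∧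
      y ^ 2 ∈ Q ∧ y' * y⁻¹ ∉ Q ∧ (y * y') ^ 2 ∈ Q ∧ B ≤ L ∧ L ≤ A ∧ (∃ l ∈ L, l ∉ B) ∧
      (∀ a ∈ L, ∀ b ∈ L, a ∉ B → b ∉ B → a * b ∈ B) ∧ (∀ a ∈ A, y * a * y⁻¹ * a⁻¹ ∈ L) ∧
      (∀ a ∈ A, y' * a * y'⁻¹ * a⁻¹ ∈ L) ∧ (∀ a ∈ L, y * a * y⁻¹ * a⁻¹ ∈ B ∧ y' * a * y'⁻¹ * a⁻¹ ∈ B ∧
        s * a * s⁻¹ * a⁻¹ ∈ B) ∧
      (∀ a ∈ A, y * a * y⁻¹ * a⁻¹ ∈ B → y' * a * y'⁻¹ * a⁻¹ ∈ B → a ∈ L) ∧
      (∀ a ∈ A, s * a * s⁻¹ * a⁻¹ ∈ L → a ∈ L) ∧ (∃ a ∈ A, y * a * y⁻¹ * a⁻¹ ∉ B) ∧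
      (∃ a ∈ A, y * a * y⁻¹ * a⁻¹ ∈ B ∧ a ∉ L) ∧ ∀ a ∈ A, ∀ b ∈ A, y * a * y⁻¹ * a⁻¹ ∈ B →
        y * b * y⁻¹ * b⁻¹ ∈ B → a ∉ L → b ∉ L → a * b ∈ L := by
  obtain ⟨f, κ, f1, k1, f2, k2, k3⟩ := coord h BA h8 a2 hc hn
  obtain ⟨s0, hs0⟩ := f1 sg8
  obtain ⟨x, hx⟩ := f1 ta8
  obtain ⟨s, hs, s3⟩ := lift_odd h.p (by decide : Odd 3) (s0 : G ⧸ Q) ((QuotientGroup.eq_one_iff (s0 ^ 3)).2
    ((f2 _).1 (by rw [map_pow, hs0]; exact MulEquiv.ext (by decide))))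
  have fs : f s = sg8 := by
    have := (f2 _).2 (QuotientGroup.eq.1 hs)
    rwa [map_mul, map_inv, inv_mul_eq_one, hs0] at this
  have ss : s * s = s⁻¹ := eq_inv_of_mul_eq_one_left (by rw [← s3]; simp [pow_succ])
  set y := x * (s * x * s⁻¹)⁻¹ with hy
  have fy : f y = ta8 * (sg8 * ta8 * sg8⁻¹)⁻¹ := by simp only [hy, map_mul, map_inv, fs, hx]
  have fy' : f (s * y * s⁻¹) = ta8 := by
    simp only [map_mul, map_inv, fs, fy]; exact MulEquiv.ext (by decide)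
  let l0 : M8 := .ofAdd ![1, 0, 0]
  let L0 : Subgroup M8 :=
    { carrier := {v | v = 1 ∨ v = l0}
      one_mem' := Or.inl rfl
      mul_mem' := by simp only [Set.mem_ofPred_eq]; decide
      inv_mem' := by simp only [Set.mem_ofPred_eq]; decide }
  let L := (L0.comap κ).map A.subtype
  have mL : ∀ a (ha : a ∈ A), a ∈ L ↔ κ ⟨a, ha⟩ = 1 ∨ κ ⟨a, ha⟩ = l0 := fun a ha =>
    mem_map_iff_mem (K := L0.comap κ) (x := ⟨a, ha⟩) A.subtype_injective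
  have LA : L ≤ A := map_subtype_le _
  have mB : ∀ a (ha : a ∈ A), a ∈ B ↔ κ ⟨a, ha⟩ = 1 := fun a ha => (k2 ⟨a, ha⟩).symm
  have cA : ∀ g, ∀ a ∈ A, g * a * g⁻¹ * a⁻¹ ∈ A := fun g a ha => A.mul_mem (nA.conj_mem a ha g) (A.inv_mem ha)
  have kc : ∀ g a (ha : a ∈ A), κ ⟨_, cA g a ha⟩ = f g (κ ⟨a, ha⟩) * (κ ⟨a, ha⟩)⁻¹ := fun g a ha => by
    rw [← k3, ← map_inv, ← map_mul]; rfl
  have km : ∀ a (ha : a ∈ A) b (hb : b ∈ A), κ ⟨_, A.mul_mem ha hb⟩ = κ ⟨a, ha⟩ * κ ⟨b, hb⟩ :=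
    fun a ha b hb => by rw [← map_mul]; rfl
  refine ⟨s, y, _, L, s3, rfl, ?_, ?_, ?_, ?_, ?_, fun b hb => (mL b (BA hb)).2 (Or.inl ((mB b _).1 hb)), LA,
    ?_, fun a ha b hb => ?_, fun a ha => ?_, fun a ha => ?_, fun a ha => ?_, fun a ha => ?_, fun a ha => ?_,
    ?_, ?_, fun a ha b hb => ?_⟩
  · calc _ = x * (s * s) * x⁻¹ * (s * s)⁻¹ * s⁻¹ * x * s * x⁻¹ := by rw [hy]; group
      _ = x * s⁻¹ * x⁻¹ * s * s⁻¹ * x * s * x⁻¹ := by rw [ss, inv_inv]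
      _ = 1 := by group
  · rw [← f2, fy, MulEquiv.ext_iff]; decide
  · rw [← f2, map_pow, fy, MulEquiv.ext_iff]; decide
  · rw [← f2, map_mul, map_inv, fy', fy, MulEquiv.ext_iff]; decide
  · rw [← f2, map_pow, map_mul, fy', fy, MulEquiv.ext_iff]; decide
  · obtain ⟨a, ha⟩ := k1 l0
    exact ⟨a, (mL a a.2).2 (Or.inr ha), by rw [← k2, ha]; decide⟩
  · rw [mB a (LA ha), mB b (LA hb), mB _ (A.mul_mem (LA ha) (LA hb)), km a (LA ha) b (LA hb)]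
    rw [mL a (LA ha)] at ha
    rw [mL b (LA hb)] at hb
    revert ha hb
    generalize κ ⟨a, _⟩ = v, κ ⟨b, _⟩ = w
    revert v w; decide
  · rw [mL _ (cA _ a ha), kc _ a ha, fy]; generalize κ ⟨a, ha⟩ = v; revert v; decide
  · rw [mL _ (cA _ a ha), kc _ a ha, fy']; generalize κ ⟨a, ha⟩ = v; revert v; decide
  · have aA := LA ha
    rw [mB _ (cA _ a aA), mB _ (cA _ a aA), mB _ (cA _ a aA), kc _ a aA, kc _ a aA, kc _ a aA, fy, fy', fs]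
    rw [mL a aA] at ha
    revert ha
    generalize κ ⟨a, aA⟩ = v; revert v; decide
  · rw [mB _ (cA _ a ha), mB _ (cA _ a ha), mL a ha, kc _ a ha, kc _ a ha, fy, fy']
    generalize κ ⟨a, ha⟩ = v; revert v; decide
  · rw [mL _ (cA _ a ha), mL a ha, kc _ a ha, fs]; generalize κ ⟨a, ha⟩ = v; revert v; decide
  · obtain ⟨a, ha⟩ := k1 (.ofAdd ![0, 0, 1])
    refine ⟨a, a.2, ?_⟩
    rw [mB _ (cA _ a a.2), kc _ a a.2, fy, ha]; decide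
  · obtain ⟨a, ha⟩ := k1 (.ofAdd ![0, 1, 0])
    refine ⟨a, a.2, ?_⟩
    rw [mB _ (cA _ a a.2), mL a a.2, kc _ a a.2, fy, ha]; decide
  · rw [mB _ (cA _ a ha), mB _ (cA _ b hb), mL a ha, mL b hb, mL _ (A.mul_mem ha hb), kc _ a ha,
      kc _ b hb, km a ha b hb, fy]
    generalize κ ⟨a, ha⟩ = v, κ ⟨b, hb⟩ = w
    revert v w; decide

end Cfsg.Agent.GH4
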