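import Mathlib
import Cfsg.Agent.GH4.E

/-! Sections of order thirty-two over a four-group of transvections. -/

set_option autoImplicit false

namespace Cfsg.Agent.GH4

open Cfsg Subgroup Cfsg.Agent.PGrp

variable {G : Type*} [Group G]

theorem inv_conj [Finite G] {N : Subgroup G} {a : G} (h : ∀ n ∈ N, a * n * a⁻¹ ∈ N) :
    ∀ n ∈ N, a⁻¹ * n * a ∈ N := fun n hn =>
  (mem_normalizer_iff''.1 (mem_normalizer_fintype (S := (N : Set G)) h) n).1 hn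

theorem s3e {s : G} (s3 : s ^ 3 = 1) (a : G) : s * (s * a * s⁻¹) * s⁻¹ = s⁻¹ * a * s := by
  have ss : s * s = s⁻¹ := eq_inv_of_mul_eq_one_left (by rw [← s3]; simp [pow_succ])
  rw [← mul_assoc, ← mul_assoc, ss, mul_assoc, ← mul_inv_rev, ss, inv_inv]

theorem tr3 [Finite G] {N H : Subgroup G} {s a b : G} (s3 : s ^ 3 = 1) (ab : s * a * s⁻¹ = b) (NH : N ≤ H)
    (aN : ∀ n ∈ N, a * n * a⁻¹ ∈ N) (aH : ∀ u ∈ H, a * u * a⁻¹ * u⁻¹ ∈ N)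
    (bH : ∀ u ∈ H, b * u * b⁻¹ * u⁻¹ ∈ N) (hs : ∀ u ∈ H, s * u * s⁻¹ * u⁻¹ ∈ N → u ∈ N)
    (hz : a * b * (s⁻¹ * a * s) ∈ H) (hw : a * b * a⁻¹ * b⁻¹ ∈ H) :
    a * b * (s⁻¹ * a * s) ∈ N ∧ a * b * a⁻¹ * b⁻¹ ∈ N := by
  have k : ∀ g, (∀ u ∈ H, g * u * g⁻¹ * u⁻¹ ∈ N) → ∀ u ∈ H, g⁻¹ * u * g ∈ H ∧ g⁻¹ * u * g * u⁻¹ ∈ N :=
    fun g hg u hu => by
      have e := inv_conj (fun u hu => by simpa using H.mul_mem (NH (hg u hu)) hu) u hu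
      exact ⟨e, by simpa [mul_assoc] using N.inv_mem (hg _ e)⟩
  have e4 : s * b * s⁻¹ = s⁻¹ * a * s := by rw [← ab, s3e s3]
  refine ⟨hs _ hz ?_, hs _ hw ?_⟩
  · convert (k a aH _ hz).2 using 2
    calc _ = (s * a * s⁻¹) * (s * b * s⁻¹) * a := by group
      _ = _ := by rw [ab, e4]; group
  · obtain ⟨u1, u2⟩ := k b bH _ hw
    convert N.mul_mem (N.mul_mem (inv_conj aN _ (N.inv_mem (k b bH _ hz).2)) (k a aH _ u1).2) u2 using 1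
    calc _ = (s * a * s⁻¹) * (s * b * s⁻¹) * (s * a * s⁻¹)⁻¹ * (s * b * s⁻¹)⁻¹ * (a * b * a⁻¹ * b⁻¹)⁻¹ := by
          group
      _ = _ := by rw [ab, e4]; group

theorem fin2 [Finite G] (h : Sect 2 4 G) {N M H V : Subgroup G} {s a b : G} (s3 : s ^ 3 = 1)
    (ab : s * a * s⁻¹ = b) (hNH : N ≤ H) (hHV : H ≤ V) (hH : ∀ k ∈ H, k ^ 2 ∈ N) (hi : 8 ≤ N.relIndex H)
    (aH : ∀ k ∈ H, a * k * a⁻¹ * k⁻¹ ∈ N) (bH : ∀ k ∈ H, b * k * b⁻¹ * k⁻¹ ∈ N)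
    (hM : ∀ n ∈ M, a * n * a⁻¹ = n ∧ b * n * b⁻¹ = n ∧ s * n * s⁻¹ = n ∧ n ^ 2 ∈ N ∧ (n ^ 2 = 1 → n ∈ N))
    (a2 : a ^ 2 ∈ M) (hz : a * b * (s⁻¹ * a * s) ∈ M) (hw : a * b * a⁻¹ * b⁻¹ ∈ M)
    (n1 : a ∉ V) (n2 : b ∉ V) (n3 : b * a⁻¹ ∉ V) : False := by
  have b2 : b ^ 2 = a ^ 2 := by rw [← ab, conj_pow, (hM _ a2).2.2.1]
  have c2 : (s⁻¹ * a * s) ^ 2 = a ^ 2 := by
    rw [← s3e s3, conj_pow, ab, b2, (hM _ a2).2.2.1]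
  have w2 : a * b * a⁻¹ * b⁻¹ ∈ N := (hM _ hw).2.2.2.2 (by
    calc _ = (a * (a * b * a⁻¹ * b⁻¹) * a⁻¹) * (a * b * a⁻¹ * b⁻¹) := by rw [(hM _ hw).1, pow_two]
      _ = a ^ 2 * (b * a ^ 2 * b⁻¹)⁻¹ := by rw [pow_two]; group
      _ = 1 := by rw [(hM _ a2).2.1, mul_inv_cancel])
  have a3 : a ^ 2 ∈ N := by
    generalize hc : s⁻¹ * a * s = c at c2 hz
    generalize hzz : a * b * c = z at hz
    have e1 : (a * b) ^ 2 = a * b * a⁻¹ * b⁻¹ * (a ^ 2) ^ 2 := by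
      calc _ = a * b * a⁻¹ * b⁻¹ * (b * a ^ 2 * b⁻¹ * b ^ 2) := by rw [pow_two, pow_two, pow_two]; group
        _ = _ := by rw [(hM _ a2).2.1, b2, ← pow_two]
    have e2 : (a * b) ^ 2 * a ^ 2 = z ^ 2 := by
      calc _ = (a * b) ^ 2 * c ^ 2 := by rw [c2]
        _ = a * (b * z * b⁻¹) * b * c := by rw [← hzz, pow_two, pow_two]; group
        _ = (a * z * a⁻¹) * (a * b * c) := by rw [(hM _ hz).2.1]; group
        _ = _ := by rw [(hM _ hz).1, hzz, pow_two]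
    have := N.mul_mem (N.inv_mem (e1 ▸ N.mul_mem w2 (hM _ a2).2.2.2.1)) (e2 ▸ (hM _ hz).2.2.2.1)
    simpa using this
  obtain ⟨K, k1, k2, k3, k4⟩ := ext_mod hNH hH (fun e => n1 (hHV e)) a3 aH
  obtain ⟨L, l1, l2, -, l4⟩ := ext_mod (hNH.trans k1) k2
    (fun e => (k3 _ e).elim (fun e => n2 (hHV e)) fun e => n3 (hHV e)) (b2 ▸ a3)
    fun k hk => comm_step hH hNH bH (by simpa [mul_assoc] using N.inv_mem w2) (k3 k hk)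
  have := sect2 h ((hNH.trans k1).trans l1) l2
  omega

theorem cent3 {s y b m : G} (s3 : s ^ 3 = 1) (hz : y * (s * y * s⁻¹) * (s⁻¹ * y * s) = 1)
    (sb : s * b * s⁻¹ = b) (yb : y * b * y⁻¹ * b⁻¹ = m) (ym : y * m * y⁻¹ = m) (sm : s * m * s⁻¹ = m)
    (m2 : m ^ 2 = 1) : y * b * y⁻¹ = b := by
  have k : ∀ g, g * b * g⁻¹ = m * b ∧ g * m * g⁻¹ = m →
      (s * g * s⁻¹) * b * (s * g * s⁻¹)⁻¹ = m * b ∧ (s * g * s⁻¹) * m * (s * g * s⁻¹)⁻¹ = m := fun g hg => by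
    have e1 : s⁻¹ * b * s = b := by nth_rw 1 [← sb]; group
    have e2 : s⁻¹ * m * s = m := by nth_rw 1 [← sm]; group
    constructor
    · calc _ = s * (g * (s⁻¹ * b * s) * g⁻¹) * s⁻¹ := by group
        _ = (s * m * s⁻¹) * (s * b * s⁻¹) := by rw [e1, hg.1]; group
        _ = _ := by rw [sm, sb]
    · calc _ = s * (g * (s⁻¹ * m * s) * g⁻¹) * s⁻¹ := by group
        _ = _ := by rw [e2, hg.2, sm]
  have k0 : y * b * y⁻¹ = m * b ∧ y * m * y⁻¹ = m := ⟨by rw [← yb]; group, ym⟩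
  have k1 := k y k0
  have k2 := k _ k1
  rw [s3e s3] at k2
  generalize s * y * s⁻¹ = y1 at *
  generalize s⁻¹ * y * s = y2 at *
  have : b = m ^ 2 * m * b := by
    calc b = (y * y1 * y2) * b * (y * y1 * y2)⁻¹ := by rw [hz]; group
      _ = y * (y1 * (y2 * b * y2⁻¹) * y1⁻¹) * y⁻¹ := by group
      _ = y * ((y1 * m * y1⁻¹) * (y1 * b * y1⁻¹)) * y⁻¹ := by rw [k2.1]; group
      _ = (y * m * y⁻¹) * (y * m * y⁻¹) * (y * b * y⁻¹) := by rw [k1.1, k1.2]; group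
      _ = _ := by rw [k0.1, k0.2, pow_two]; group
  rw [k0.1, ← one_mul m, ← m2, ← this]

theorem inL [Finite G] {A B L : Subgroup G} [nA : A.Normal] {s y y' : G} (s3 : s ^ 3 = 1)
    (yy : s * y * s⁻¹ = y') (hz : y * y' * (s⁻¹ * y * s) = 1) (BL : B ≤ L) (LA : L ≤ A)
    (a2 : ∀ a ∈ A, a ^ 2 ∈ B) (g1 : ∀ a ∈ A, y * a * y⁻¹ * a⁻¹ ∈ L) (g2 : ∀ a ∈ A, y' * a * y'⁻¹ * a⁻¹ ∈ L)
    (g3 : ∀ a ∈ L, y * a * y⁻¹ * a⁻¹ ∈ B)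
    (g4 : ∀ a ∈ A, y * a * y⁻¹ * a⁻¹ ∈ B → y' * a * y'⁻¹ * a⁻¹ ∈ B → a ∈ L)
    (g5 : ∀ a ∈ A, s * a * s⁻¹ * a⁻¹ ∈ L → a ∈ L) (y2 : y ^ 2 ∈ A) :
    y * y' * y⁻¹ * y'⁻¹ ∈ L ∧ y ^ 2 ∈ L := by
  have e1 : (y * y') ^ 2 ∈ A := by
    rw [eq_inv_of_mul_eq_one_left hz, inv_pow]
    simpa [pow_two, mul_assoc] using A.inv_mem (nA.conj_mem _ y2 s⁻¹)
  have e2 : y' ^ 2 ∈ A := by rw [← yy, conj_pow]; exact nA.conj_mem _ y2 s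
  have w := (tr3 s3 yy LA (fun n hn => by simpa using L.mul_mem (BL (g3 n hn)) hn) g1 g2 g5
    (hz ▸ A.one_mem) (by simpa [pow_two, mul_assoc] using A.mul_mem (A.mul_mem e1
      (nA.conj_mem _ (A.inv_mem y2) y'⁻¹)) (A.inv_mem e2))).2
  refine ⟨w, g4 _ y2 (by simp [pow_two, mul_assoc]) ?_⟩
  simpa [pow_two, mul_assoc] using B.inv_mem (B.mul_mem (g3 _ w) (a2 _ (LA w)))

theorem rel2 {B L : Subgroup G} {l : G} (hl : l ∈ L) (l1 : l ∉ B)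
    (i2 : ∀ a ∈ L, ∀ b ∈ L, a ∉ B → b ∉ B → a * b ∈ B) : B.relIndex L = 2 :=
  index_eq_two_iff.2 ⟨⟨l, hl⟩, fun b => by
    by_cases h : (b : G) ∈ B
    · exact Or.inr ⟨h, fun e => l1 (by simpa using B.mul_mem (B.inv_mem h) e)⟩
    · exact Or.inl ⟨i2 b b.2 l hl h l1, h⟩⟩

theorem caseA [Finite G] {Q A E : Subgroup G} [nQ : Q.Normal] [nA : A.Normal] [nE : E.Normal] {r : G}
    (h : H7 Q r) (EA : E ≤ A) (AQ : A ≤ Q) (e2 : ∀ a ∈ E, a ^ 2 = 1) (h16 : Nat.card E = 16)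
    (hc : ∀ q ∈ Q, ∀ v ∈ E, q * v = v * q) (h8 : E.relIndex A = 8) (q2 : ∀ q ∈ Q, q ^ 2 ∈ E)
    (hn : ∃ a ∈ A, r * a * r⁻¹ * a⁻¹ ∉ E)
    (hy : ∀ y ∉ Q, y ^ 2 ∈ Q → y ^ 2 ∈ A ∧ Nat.card (E ⊓ centralizer {y} : Subgroup G) ≤ 4) : False := by
  have a2 := fun a ha => q2 a (AQ ha)
  obtain ⟨s, y, y', L, s3, yy, hz, y1, y2, -, -, EL, LA, ⟨l, l1, l2⟩, i2, g1, g2, g3, g4, g5, ⟨x, x1, x2⟩,
    ⟨c, c1, c2, c3⟩, -⟩ := glc h EA h8 a2 (fun q hq a ha => comm_mem q2 hq (AQ ha)) hn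
  obtain ⟨-, y3⟩ := inL s3 yy hz EL LA a2 g1 g2 (fun a ha => (g3 a ha).1) g4 g5 (hy y y1 y2).1
  obtain ⟨u, u1, u2⟩ : ∃ u ∈ A, (u * y) ^ 2 ∈ E := by
    by_cases e : y ^ 2 ∈ E
    · exact ⟨1, A.one_mem, by simpa using e⟩
    refine ⟨x, x1, ?_⟩
    convert E.mul_mem (E.mul_mem (nE.conj_mem _ (i2 _ (g1 x x1) _ y3 x2 e) x)
      (comm_mem q2 (AQ x1) (Q.inv_mem y2))) (nE.conj_mem _ (a2 x x1) (y ^ 2)⁻¹) using 1
    simp only [pow_two]; group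
  have t1 : u * y ∉ Q := fun e => y1 (by simpa using Q.mul_mem (Q.inv_mem (AQ u1)) e)
  obtain ⟨S, s1, s2, s4, s5⟩ := ext_mod EL (fun k hk => a2 k (LA hk)) c3 (a2 c c1)
    fun k hk => comm_mem a2 c1 (LA hk)
  have SA : S ≤ A := fun k hk => (s4 k hk).elim (LA ·) fun e => by simpa using A.mul_mem (LA e) c1
  have k1 := tsec h.sect (t := u * y) (EL.trans s1) e2 (fun a ha => hc a (AQ (SA ha))) s2 (fun k hk => by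
    have e := comm_step (fun k hk => a2 k (LA hk)) EL (fun a ha => (g3 a ha).1) c2 (s4 k hk)
    simpa [mul_assoc] using nE.conj_mem _ (E.mul_mem (nE.conj_mem _ e u) (comm_mem a2 u1 (SA hk))) k⁻¹)
    u2 fun e => t1 (AQ (SA e))
  have k2 := ((E ⊓ centralizer {u * y}).subgroupOf E).card_mul_index
  rw [Nat.card_congr (subgroupOfEquivOfLe inf_le_left).toEquiv, h16] at k2
  have k3 := (hy _ t1 (AQ (EA u2))).2
  rw [rel2 l1 l2 i2] at s5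
  rw [relIndex] at k1
  nlinarith

theorem t7q [Finite G] {N K : Subgroup G} [N.Normal] {r : G} (h8 : N.relIndex K = 8) (r7 : r ^ 7 = 1)
    (hf : ∀ x ∈ K, r * x * r⁻¹ * x⁻¹ ∈ N → x ∈ N) {S : Set G} (hS : ∀ x ∈ S, r * x * r⁻¹ ∈ S)
    (hN : ∀ x ∈ S, ∀ n ∈ N, x * n ∈ S) (hK : ∀ x ∈ K, r * x * r⁻¹ ∈ K) {x : G} (hx : x ∈ S) (xK : x ∈ K)
    (x1 : x ∉ N) : ∀ k ∈ K, k ∉ N → k ∈ S := fun k hk k1 => by
  let π := QuotientGroup.mk' N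
  obtain ⟨y, y1, y2⟩ := t7 (K := K.map π) (r := π r) (S := π '' S)
    (by rw [← relIndex_ker, QuotientGroup.ker_mk', h8]) (by rw [← map_pow, r7, map_one])
    (by
      rintro _ ⟨a, ha, rfl⟩ e
      exact (QuotientGroup.eq_one_iff a).2 (hf a ha ((QuotientGroup.eq_one_iff _).1 (mul_inv_eq_one.2 e))))
    (by rintro _ ⟨a, ha, rfl⟩; exact ⟨_, hS a ha, by simp⟩)
    (by rintro _ ⟨a, ha, rfl⟩; exact ⟨_, hK a ha, by simp⟩) ⟨x, hx, rfl⟩ ⟨x, xK, rfl⟩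
    (mt (QuotientGroup.eq_one_iff x).1 x1) (π k) ⟨k, hk, rfl⟩ (mt (QuotientGroup.eq_one_iff k).1 k1)
  simpa using hN y y1 _ (QuotientGroup.eq.1 y2)

theorem H7.cen [Finite G] {Q U : Subgroup G} [U.Normal] {r : G} (h : H7 Q r)
    (hc : ∀ q ∈ Q, ∀ v ∈ U, q * v = v * q) (h8 : Nat.card U = 8) (u2 : ∀ a ∈ U, a ^ 2 = 1)
    (hf : ∀ x ∈ U, r * x * r⁻¹ = x → x = 1) {g : G} (hg : g ∉ Q) :
    Nat.card (U ⊓ centralizer {g} : Subgroup G) ≤ 4 := by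
  obtain ⟨a, b, b1, -, b3, b4⟩ := pows (vp u2) (by omega) (K := U ⊓ centralizer {g})
    (lt_of_le_of_ne inf_le_left fun e => by
      have e1 := h.top (C := centralizer U) (fun q hq v hv => (hc q hq v hv).symm) (y := g)
        (fun v hv => mem_centralizer_singleton_iff.1 (e.ge hv).2) hg
      have : U = ⊥ := eq_bot_iff.2 fun x hx => hf x hx (by rw [← e1.ge (mem_top r) x hx]; group)
      simp [this] at h8)
  obtain rfl : a = 3 := Nat.pow_right_injective (le_refl 2) (b3.symm.trans h8)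
  exact b4 ▸ Nat.pow_le_pow_right two_pos (by omega : b ≤ 2)

theorem sqb [Finite G] (h : Sect 2 4 G) {U A : Subgroup G} [U.Normal] {r : G} (r7 : r ^ 7 = 1) (UA : U ≤ A)
    (hc : ∀ q ∈ A, ∀ v ∈ U, q * v = v * q) (h8 : Nat.card U = 8) (u2 : ∀ a ∈ U, a ^ 2 = 1)
    (hf : ∀ x ∈ U, r * x * r⁻¹ = x → x = 1) (i8 : U.relIndex A = 8) (a2 : ∀ a ∈ A, a ^ 2 ∈ U)
    (hA : ∀ x ∈ A, r * x * r⁻¹ ∈ A) (fA : ∀ x ∈ A, r * x * r⁻¹ * x⁻¹ ∈ U → x ∈ U) :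
    (∀ u ∈ U, ∃ a ∈ A, a ^ 2 = u) ∧ ∀ a ∈ A, ∀ b ∈ A, a ^ 2 = b ^ 2 → a⁻¹ * b ∈ U := by
  have sq : ∀ a ∈ A, ∀ n ∈ U, (a * n) ^ 2 = a ^ 2 := fun a ha n hn => by
    rw [Commute.mul_pow (hc a ha n hn), u2 n hn, mul_one]
  obtain ⟨x, x1, x2⟩ : ∃ x ∈ A, x ^ 2 ≠ 1 := by
    by_contra e
    push Not at e
    have e1 := sect2 h (N := ⊥) (K := A) bot_le (by simpa using e)
    have e2 := relIndex_mul_relIndex ⊥ U A bot_le UA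
    rw [relIndex_bot_left, h8, i8] at e2
    omega
  have k1 : ∀ u ∈ U, ∃ a ∈ A, a ^ 2 = u := fun u hu => by
    by_cases e : u = 1
    · exact ⟨1, A.one_mem, by simp [e]⟩
    exact t7 h8 r7 hf (S := {u | ∃ a ∈ A, a ^ 2 = u}) (by
      rintro _ ⟨a, ha, rfl⟩; exact ⟨_, hA a ha, conj_pow⟩) (fun x hx => Normal.conj_mem ‹_› x hx r)
      ⟨x, x1, rfl⟩ (a2 x x1) x2 u hu e
  let φ : A ⧸ U.subgroupOf A → U := Quotient.lift (fun a : A => ⟨a ^ 2, a2 a a.2⟩) fun a b e =>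
    Subtype.ext (by simpa using (sq a a.2 _ (QuotientGroup.leftRel_apply (s := U.subgroupOf A).1 e)).symm)
  have k2 : Function.Bijective φ := (Nat.bijective_iff_surjective_and_card φ).2 ⟨fun u => by
    obtain ⟨a, ha, e⟩ := k1 u u.2
    exact ⟨((⟨a, ha⟩ : A) : A ⧸ U.subgroupOf A), Subtype.ext e⟩, i8.trans h8.symm⟩
  exact ⟨k1, fun a ha b hb e => QuotientGroup.eq (s := U.subgroupOf A).1 (k2.1 (a₁ := ((⟨a, ha⟩ : A) : A ⧸ U.subgroupOf A))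
    (a₂ := ((⟨b, hb⟩ : A) : A ⧸ U.subgroupOf A)) (Subtype.ext e))⟩

end Cfsg.Agent.GH4
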