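import Mathlib
import Cfsg.Agent.GH4.F

/-! Homocyclic extensions and cyclic direct factors. -/

set_option autoImplicit false

namespace Cfsg.Agent.GH4

open Cfsg Subgroup Cfsg.Agent.PGrp

variable {G : Type*} [Group G]

theorem z4 [Finite G] {Q A U : Subgroup G} [nQ : Q.Normal] [nA : A.Normal] [nU : U.Normal] {r : G}
    (h : H7 Q r) (UA : U ≤ A) (AQ : A ≤ Q) (u2 : ∀ a ∈ U, a ^ 2 = 1) (h8 : Nat.card U = 8)
    (hc : ∀ q ∈ Q, ∀ v ∈ U, q * v = v * q) (hf : ∀ x ∈ U, r * x * r⁻¹ = x → x = 1)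
    (i8 : U.relIndex A = 8) (q2 : ∀ q ∈ Q, q ^ 2 ∈ U) (fA : ∀ x ∈ A, r * x * r⁻¹ * x⁻¹ ∈ U → x ∈ U)
    (hy : ∀ y ∉ Q, y ^ 2 ∈ Q → y ^ 2 ∈ A ∨ ∀ a ∈ A, y ^ 2 * a * (y ^ 2)⁻¹ = a⁻¹) : False := by
  have a2 := fun a ha => q2 a (AQ ha)
  have ac := fun a ha => hc a (AQ ha)
  obtain ⟨sj, inj⟩ := sqb h.sect h.r7 UA ac h8 u2 hf i8 a2 (fun x hx => nA.conj_mem x hx r) fA
  have sq : ∀ a ∈ A, ∀ n ∈ U, (n * a) ^ 2 = a ^ 2 := fun a ha n hn => by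
    rw [Commute.mul_pow (ac a ha n hn).symm, u2 n hn, one_mul]
  have fx : ∀ g, ∀ a ∈ A, g * a * g⁻¹ * a⁻¹ ∈ U ↔ g * a ^ 2 * g⁻¹ = a ^ 2 := fun g a ha =>
    ⟨fun e => by rw [← conj_pow, ← sq a ha _ e, inv_mul_cancel_right], fun e => by
      simpa using nU.conj_mem _ (inj a ha _ (nA.conj_mem a ha g) (by rw [conj_pow, e])) a⟩
  have n1 : ∀ a ∈ A, a ^ 2 = 1 → a ∈ U := fun a ha e => by simpa using inj 1 A.one_mem a ha (by simp [e])
  obtain ⟨s, y, y', L, s3, yy, hz, y1, y2, y3, -, UL, LA, ⟨l, l1, l2⟩, i2, g1, g2, g3, g4, g5, ⟨x, x1, x2⟩,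
    ⟨c, c1, c2, c3⟩, g6⟩ := glc h UA i8 a2 (fun q hq a ha => comm_mem q2 hq (AQ ha)) (by
      by_contra e
      push Not at e
      rw [relIndex_eq_one.2 fun a ha => fA a ha (e a ha)] at i8
      omega)
  have y4 : y' ∉ Q := fun e => y1 (by simpa [← yy, mul_assoc] using nQ.conj_mem _ e s⁻¹)
  have y5 : y * y' ∉ Q := fun e => y1 (by
    rw [eq_inv_of_mul_eq_one_left hz] at e
    simpa [mul_assoc] using nQ.conj_mem _ (Q.inv_mem e) s)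
  have key : ∀ g ∉ Q, ∀ a ∈ A, ∀ b ∈ A, g * a * g⁻¹ * a⁻¹ ∈ U → g * b * g⁻¹ * b⁻¹ ∈ U → a * b = b * a :=
    fun g hg a ha b hb e1 e2 => by
      by_cases k1 : a ∈ U
      · exact (ac b hb a k1).symm
      by_cases k2 : b ∈ U
      · exact ac a ha b k2
      by_cases k3 : a * b ∈ U
      · exact mul_left_cancel (a := a) (by rw [ac a ha _ k3, mul_assoc])
      have k4 : ∀ a ∈ A, ∀ b ∈ A, a * b ∉ U → a ^ 2 ≠ b ^ 2 := fun a ha b hb e e' => e (by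
        simpa [pow_two, mul_assoc] using U.mul_mem (a2 a ha) (inj a ha b hb e'))
      have ab := A.mul_mem ha hb
      have m1 : a ^ 2 ∈ U ⊓ centralizer {g} := ⟨a2 a ha, mcs.2 ((fx g a ha).1 e1)⟩
      have m2 : b ^ 2 ∈ U ⊓ centralizer {g} := ⟨a2 b hb, mcs.2 ((fx g b hb).1 e2)⟩
      have m3 : (a * b) ^ 2 ∈ U ⊓ centralizer {g} := ⟨a2 _ ab, mcs.2 ((fx g _ ab).1 (by
        simpa [mul_assoc] using U.mul_mem e1 (nU.conj_mem _ e2 a)))⟩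
      by_contra k5
      have c6 : ({a ^ 2 * b ^ 2, (a * b) ^ 2, a ^ 2, b ^ 2, 1} : Set G).ncard ≤
          ((U ⊓ centralizer {g} : Subgroup G) : Set G).ncard := Set.ncard_le_ncard (by
        rintro _ (rfl | rfl | rfl | rfl | rfl)
        exacts [mul_mem m1 m2, m3, m1, m2, one_mem _])
      have d1 := mt (n1 a ha) k1
      have d2 := mt (n1 b hb) k2
      have d3 := mt (n1 _ ab) k3
      have d4 := k4 a ha b hb k3
      have d5 : (a * b) ^ 2 ≠ a ^ 2 := (k4 a ha _ ab fun e => k2 (by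
        simpa [pow_two, mul_assoc] using U.mul_mem (U.inv_mem (a2 a ha)) e)).symm
      have d6 : (a * b) ^ 2 ≠ b ^ 2 := k4 _ ab b hb fun e => k1 (by
        simpa [pow_two, mul_assoc] using U.mul_mem e (U.inv_mem (a2 b hb)))
      have d7 : a ^ 2 * b ^ 2 ≠ (a * b) ^ 2 := fun e => k5 (mul_right_cancel (b := b) (by
        simpa [pow_two, mul_assoc] using e))
      have d8 : a ^ 2 * b ^ 2 ≠ 1 := fun e => d4 (by
        rw [eq_inv_of_mul_eq_one_left e, vinv (u2 _ (a2 b hb))])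
      rw [Set.ncard_insert_of_notMem (by simp [d1, d2, d7, d8]), Set.ncard_insert_of_notMem (by
        simp [d3, d5, d6]), Set.ncard_insert_of_notMem (by simp [d1, d4]), Set.ncard_pair d2,
        ← Nat.card_coe_set_eq] at c6
      have := h.cen hc h8 u2 hf hg
      change _ ≤ Nat.card (U ⊓ centralizer {g} : Subgroup G) at c6
      omega
  have ab : ∀ a ∈ A, ∀ b ∈ A, a * b = b * a := fun a ha => by
    by_cases k : a ∈ U
    · exact fun b hb => (ac b hb a k).symm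
    refine t7q i8 h.r7 fA (S := {a | ∀ b ∈ A, a * b = b * a}) (fun a ha b hb => ?_) (fun a ha n hn b hb => ?_)
      (fun x hx => nA.conj_mem x hx r) (fun b hb => ?_) (LA l1) l2 a ha k
    · have := ha _ (nA.conj_mem b hb r⁻¹)
      calc _ = r * (a * (r⁻¹ * b * r⁻¹⁻¹)) * r⁻¹ := by group
        _ = _ := by rw [this]; group
    · rw [mul_assoc, ← ac b hb n hn, ← mul_assoc, ha b hb, mul_assoc]
    · obtain ⟨f1, f2, -⟩ := g3 l l1
      by_cases e1 : y * b * y⁻¹ * b⁻¹ ∈ U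
      · exact key y y1 l (LA l1) b hb f1 e1
      by_cases e2 : y' * b * y'⁻¹ * b⁻¹ ∈ U
      · exact key y' y4 l (LA l1) b hb f2 e2
      refine key _ y5 l (LA l1) b hb (by simpa [mul_assoc] using U.mul_mem (nU.conj_mem _ f2 y) f1) ?_
      simpa [mul_assoc] using U.mul_mem (g3 _ (g2 b hb)).1 (i2 _ (g2 b hb) _ (g1 b hb) e2 e1)
  have ab' : ∀ a ∈ A, ∀ b ∈ A, a * b * a⁻¹ = b := fun a ha b hb => by rw [ab a ha b hb]; group
  have cA : ∀ g, ∀ a ∈ A, g * a * g⁻¹ * a⁻¹ ∈ A := fun g a ha => A.mul_mem (nA.conj_mem a ha g) (A.inv_mem ha)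
  have csq : ∀ g, ∀ a ∈ A, g * a ^ 2 * g⁻¹ * (a ^ 2)⁻¹ = (g * a * g⁻¹ * a⁻¹) ^ 2 := fun g a ha => by
    rw [Commute.mul_pow (ab _ (nA.conj_mem a ha g) _ (A.inv_mem ha)), conj_pow, inv_pow]
  have yA : y ^ 2 ∈ A := (hy y y1 y2).resolve_right fun e => c3 (by
    obtain ⟨a, ha, e1⟩ := sj _ c2
    have e2 : c ^ 2 = (y * a * y⁻¹ * a⁻¹) ^ 2 := by
      rw [← csq y a ha, ← vinv (u2 _ (a2 c c1)), ← vinv (u2 _ (a2 a ha)), inv_inv, vinv (u2 _ (a2 a ha)), e1]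
      calc _ = c⁻¹ * c⁻¹ := by rw [pow_two, mul_inv_rev]
        _ = (y ^ 2 * c * (y ^ 2)⁻¹) * c⁻¹ := by rw [e c c1]
        _ = _ := by rw [pow_two]; group
    simpa [mul_assoc] using L.mul_mem (g1 a ha) (L.inv_mem (UL (inj c c1 _ (cA y a ha) e2))))
  obtain ⟨w1, y6⟩ := inL s3 yy hz UL LA a2 g1 g2 (fun a ha => (g3 a ha).1) g4 g5 yA
  obtain ⟨b, b1, b2⟩ := exists_fixed_mem_coset (a := MulAut.conj s) (N := U) (g := l)
    (fun x => ⟨fun e => by simpa [mul_assoc] using nU.conj_mem _ e s⁻¹, fun e => nU.conj_mem _ e s⟩)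
    (by simpa [mul_assoc] using nU.conj_mem _ (g3 l l1).2.2 l⁻¹) Nat.prime_three (k := 1)
    (by rw [pow_one, ← map_pow, s3, map_one]) (by rw [h8]; decide)
  have bL : b ∈ L := by simpa using L.mul_mem l1 (UL b1)
  have bU : b ∉ U := fun e => l2 (by simpa using U.mul_mem e (U.inv_mem b1))
  set N0 := U ⊓ centralizer {s} with hN0
  set N := L ⊓ centralizer {s} with hN
  have bN : b ∈ N := ⟨bL, mcs.2 b2⟩
  have N0N : N0 ≤ N := inf_le_inf_right _ UL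
  have m1 : ∀ a ∈ L, a ^ 2 ∈ N0 := fun a ha => ⟨a2 a (LA ha), mcs.2 ((fx s a (LA ha)).1 (g3 a ha).2.2)⟩
  have m2 : ∀ u ∈ N0, ∃ a ∈ L, a ^ 2 = u := fun u hu => by
    obtain ⟨a, ha, rfl⟩ := sj u hu.1
    exact ⟨a, g5 a ha (UL ((fx s a ha).2 (mcs.1 hu.2))), rfl⟩
  have m3 : ∀ u ∈ N0, y * u * y⁻¹ = u := fun u hu => by
    obtain ⟨a, ha, rfl⟩ := m2 u hu
    exact (fx y a (LA ha)).1 (g3 a ha).1
  have m4 : ∀ u ∈ U, y * u * y⁻¹ * u⁻¹ ∈ N0 := fun u hu => by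
    obtain ⟨a, ha, rfl⟩ := sj u hu
    exact csq y a ha ▸ m1 _ (g1 a ha)
  have m5 : ∀ a ∈ L, ∀ a' ∈ L, a' ∉ U → y * a' * y⁻¹ * a'⁻¹ ∈ N0 → y * a * y⁻¹ * a⁻¹ ∈ N0 :=
    fun a ha a' ha' e e' => by
      by_cases k : a ∈ U
      · exact m4 a k
      have := ((cm A N0 ab y).mul_mem ⟨UA (i2 a ha a' ha' k e), m4 _ (i2 a ha a' ha' k e)⟩
        ((cm A N0 ab y).inv_mem ⟨LA ha', e'⟩)).2
      simpa using this
  have m6 : ∀ a ∈ L, y * a * y⁻¹ * a⁻¹ ∈ N0 := fun a ha => m5 a ha _ (g1 x x1) x2 (by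
    convert N0.inv_mem (m1 _ (g1 x x1)) using 1
    calc _ = (y ^ 2 * x * (y ^ 2)⁻¹) * (y * x⁻¹ * y⁻¹) * (y * x * y⁻¹ * x⁻¹)⁻¹ := by rw [pow_two]; group
      _ = _ := by rw [ab' _ yA x x1, pow_two]; group)
  have yb := cent3 s3 (yy ▸ hz) b2 rfl (m3 _ (m6 b bL)) (mcs.1 (m6 b bL).2) (u2 _ (m6 b bL).1)
  have yN : ∀ n ∈ N, y * n * y⁻¹ = n := fun n hn => by
    by_cases k : n ∈ U
    · exact m3 n ⟨k, hn.2⟩
    have := m3 _ ⟨i2 n hn.1 b bL k bU, (N.mul_mem hn bN).2⟩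
    calc _ = y * (n * b) * y⁻¹ * (y * b * y⁻¹)⁻¹ := by group
      _ = _ := by rw [this, yb, mul_inv_cancel_right]
  have sN : ∀ g, (∀ n ∈ N, g * n * g⁻¹ = n) → ∀ n ∈ N, (s * g * s⁻¹) * n * (s * g * s⁻¹)⁻¹ = n :=
    fun g hg n hn => by
      have e := mcs.1 hn.2
      calc _ = s * (g * (s⁻¹ * (s * n * s⁻¹) * s) * g⁻¹) * s⁻¹ := by rw [e]; group
        _ = s * (g * n * g⁻¹) * s⁻¹ := by group
        _ = _ := by rw [hg n hn, e]
  have sL : ∀ u ∈ L, s * u * s⁻¹ * u⁻¹ ∈ N → u ∈ N := fun u hu e => ⟨hu, mcs.2 (mul_inv_eq_one.1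
    (fixo h.p (by decide : Odd 3) s3 (AQ (LA e.1)) (x := u) (by
      rw [ab u (LA hu) _ (LA e.1)]; group) (mcs.1 e.2)))⟩
  have j2 : ∀ a ∈ L, y * a * y⁻¹ = a → a ∉ N → ∃ e ∈ A, y * e * y⁻¹ * e⁻¹ ∈ U ∧ e ∉ L ∧ a * e ^ 2 ∈ N :=
    fun a ha e1 e2 => by
      obtain ⟨n, hn, e3⟩ : ∃ n ∈ N, a * n ∈ U := by
        by_cases k : a ∈ U
        exacts [⟨1, N.one_mem, by simpa⟩, ⟨b, bN, i2 a ha b bL k bU⟩]
      obtain ⟨e, he, e4⟩ := sj _ e3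
      refine ⟨e, he, (fx y e he).2 (by rw [e4]; nth_rw 2 [← e1, ← yN n hn]; group), fun e5 => e2 (by
        simpa [e4] using N.mul_mem (N0N (m1 e e5)) (N.inv_mem hn)), ?_⟩
      simpa [e4, pow_two, mul_assoc] using N.mul_mem (N0N (m1 a ha)) hn
  obtain ⟨u, u1, u3⟩ : ∃ u ∈ A, (u * y) ^ 2 ∈ N := by
    by_cases e : y ^ 2 ∈ N
    · exact ⟨1, A.one_mem, by simpa using e⟩
    obtain ⟨u, u1, u3⟩ : ∃ u ∈ A, u * (y * u * y⁻¹) ∉ N := by
      by_contra e'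
      push Not at e'
      have k : ∀ g, (∀ u ∈ A, u * (g * u * g⁻¹) ∈ N) → ∀ u ∈ A, u * ((s * g * s⁻¹) * u * (s * g * s⁻¹)⁻¹) ∈ N :=
        fun g hg u hu => by
          have := hg _ (nA.conj_mem u hu s⁻¹)
          rw [← mcs.1 this.2] at this
          simpa [mul_assoc] using this
      have k1 := k _ e'
      have k2 := k _ k1
      rw [s3e s3] at k2
      rw [yy] at k1
      have k3 := N.mul_mem (N.mul_mem (k2 c c1) (N.inv_mem (k1 _ (nA.conj_mem c c1 (s⁻¹ * y * s)))))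
        (e' _ (nA.conj_mem _ (nA.conj_mem c c1 (s⁻¹ * y * s)) y'))
      generalize s⁻¹ * y * s = y2 at *
      rw [show y * (y' * (y2 * c * y2⁻¹) * y'⁻¹) * y⁻¹ = (y * y' * y2) * c * (y * y' * y2)⁻¹ by group, hz,
        one_mul, inv_one, mul_one] at k3
      have p1 := nA.conj_mem c c1 y2
      have p2 := nA.conj_mem _ p1 y'
      generalize y' * (y2 * c * y2⁻¹) * y'⁻¹ = q at *
      generalize y2 * c * y2⁻¹ = p at *
      rw [← ab q p2 p p1, show c * p * (q * p)⁻¹ * (q * c) = c ^ 2 by rw [pow_two]; group] at k3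
      obtain ⟨a, ha, e4⟩ := m2 _ ⟨a2 c c1, k3.2⟩
      exact c3 (by simpa using L.mul_mem ha (UL (inj a (LA ha) c c1 e4)))
    have v1 : u * (y * u * y⁻¹) ∈ L := by
      have := L.mul_mem (UL (a2 u u1)) (g1 u u1)
      rw [← ab _ (A.inv_mem u1) _ (nA.conj_mem u u1 y)] at this
      simpa [pow_two, mul_assoc] using this
    obtain ⟨e1, f1, f2, f3, f4⟩ := j2 _ v1 (by
      calc _ = y * u * y⁻¹ * (y ^ 2 * u * (y ^ 2)⁻¹) := by rw [pow_two]; group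
        _ = _ := by rw [ab' _ yA u u1, ab _ (nA.conj_mem u u1 y) u u1]) u3
    obtain ⟨e2, f5, f6, f7, f8⟩ := j2 _ y6 (by simp [pow_two, mul_assoc]) e
    have := N.mul_mem (N.mul_mem f4 f8) (N.inv_mem (N0N (m1 _ (g6 e1 f1 e2 f5 f2 f6 f3 f7))))
    rw [Commute.mul_pow (ab e1 f1 e2 f5), mul_assoc (u * _), ← mul_assoc (e1 ^ 2),
      ab _ (UA (a2 e1 f1)) _ yA] at this
    exact ⟨u, u1, by simpa [pow_two, mul_assoc] using this⟩
  set t := u * y with ht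
  have tv : ∀ a ∈ A, t * a * t⁻¹ = y * a * y⁻¹ := fun a ha => by
    rw [← ab' u u1 _ (nA.conj_mem a ha y), ht]; group
  have tv' : ∀ a ∈ A, (s * t * s⁻¹) * a * (s * t * s⁻¹)⁻¹ = y' * a * y'⁻¹ := fun a ha => by
    calc _ = s * (t * (s⁻¹ * a * s⁻¹⁻¹) * t⁻¹) * s⁻¹ := by group
      _ = _ := by rw [tv _ (nA.conj_mem a ha s⁻¹), ← yy]; group
  have mq : ∀ z : G, z ∈ A ↔ (z : G ⧸ A) = 1 := fun z => (QuotientGroup.eq_one_iff z).symm
  have tq : (t : G ⧸ A) = y := by simp [ht, (mq u).1 u1]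
  have tN : ∀ n ∈ N, t * n * t⁻¹ = n := fun n hn => by rw [tv n (LA hn.1), yN n hn]
  have sH : ∀ k ∈ L, s⁻¹ * k * s ∈ L := inv_conj fun k hk => by simpa using L.mul_mem (UL (g3 k hk).2.2) hk
  have tL : ∀ k ∈ L, t * k * t⁻¹ * k⁻¹ ∈ N0 := fun k hk => by rw [tv k (LA hk)]; exact m6 k hk
  have tL' : ∀ k ∈ L, s * t * s⁻¹ * k * (s * t * s⁻¹)⁻¹ * k⁻¹ ∈ N0 := fun k hk => by
    have := tL _ (sH k hk)
    rw [← mcs.1 this.2] at this
    simpa [mul_assoc] using this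
  obtain ⟨z1, z2⟩ := tr3 (a := t) s3 rfl LA (fun n hn => by simpa using L.mul_mem (UL (tL n hn).1) hn)
    (fun a ha => by rw [tv a ha]; exact g1 a ha) (fun a ha => by rw [tv' a ha]; exact g2 a ha) g5
    ((mq _).2 (by simpa [tq, ← yy] using congrArg (QuotientGroup.mk (s := A)) hz))
    ((mq _).2 (by simpa [tq, ← yy] using (mq _).1 (LA w1)))
  obtain ⟨z3, z4⟩ := tr3 (a := t) s3 rfl (inf_le_left : N ≤ L) (fun n hn => (tN n hn).symm ▸ hn)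
    (fun a ha => N0N (tL a ha)) (fun a ha => N0N (tL' a ha)) sL z1 z2
  have mQ : ∀ a b : G, (a : G ⧸ A) = b → b ∉ Q → a ∉ Q := fun a b e e1 e2 =>
    e1 (by simpa using Q.mul_mem e2 (AQ (QuotientGroup.eq.1 e)))
  refine fin2 h.sect s3 rfl ((inf_le_left : N0 ≤ U).trans UL) (LA.trans AQ) m1 ?_ tL tL'
    (fun n hn => ⟨tN n hn, sN t tN n hn, mcs.1 hn.2, m1 n hn.1, fun e => ⟨n1 n (LA hn.1) e, hn.2⟩⟩) u3 z3 z4
    (mQ _ _ tq y1) (mQ _ _ (by simp [tq, ← yy]) y4) (mQ _ _ (by simp [tq, ← yy]) y3)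
  have k1 : Nat.card N0 ≤ 2 := by
    refine (Set.ncard_le_ncard (t := {1, b ^ 2}) fun u hu => ?_).trans ((Set.ncard_insert_le ..).trans (by simp))
    obtain ⟨a, ha, rfl⟩ := m2 u hu
    by_cases k : a ∈ U
    · exact Or.inl (u2 a k)
    · exact Or.inr (by simpa using (sq b (LA bL) _ (i2 a ha _ (L.inv_mem bL) k (mt U.inv_mem_iff.1 bU))))
  have k2 := (N0.subgroupOf U).card_mul_index
  rw [Nat.card_congr (subgroupOfEquivOfLe inf_le_left).toEquiv, h8] at k2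
  rw [← relIndex_mul_relIndex N0 U L inf_le_left UL, rel2 l1 l2 i2, relIndex]
  nlinarith

/-- The structure of the normal subgroup. -/
structure Str (Q K : Subgroup G) (r c : G) : Prop where
  le : K ≤ Q
  card : Nat.card K = 8
  sq : ∀ k ∈ K, k ^ 2 = 1
  inv : ∀ k ∈ K, r * k * r⁻¹ ∈ K
  fpf : ∀ k ∈ K, r * k * r⁻¹ = k → k = 1
  mem : c ∈ Q
  fix : r * c * r⁻¹ = c
  comm : ∀ k ∈ K, k * c = c * k
  gen : ∀ q ∈ Q, ∃ k ∈ K, ∃ n : ℤ, q = k * c ^ n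

theorem Str.ab {Q K : Subgroup G} {r c : G} (h : Str Q K r c) : ∀ a ∈ Q, ∀ b ∈ Q, a * b = b * a :=
  fun a ha b hb => by
    obtain ⟨k, hk, n, rfl⟩ := h.gen a ha
    obtain ⟨j, hj, m, rfl⟩ := h.gen b hb
    exact ((Commute.mul_right (vcomm h.sq k hk j hj) (Commute.zpow_right (h.comm k hk) m)).mul_left
      ((Commute.zpow_right (h.comm j hj) n).symm.mul_right (Commute.zpow_zpow_self c n m)))

theorem Str.sq' {Q K : Subgroup G} {r c : G} (h : Str Q K r c) {k : G} (hk : k ∈ K) (n : ℤ) :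
    (k * c ^ n) ^ 2 = (c ^ n) ^ 2 := by
  rw [Commute.mul_pow (Commute.zpow_right (h.comm k hk) n), h.sq k hk, one_mul]

/-- Elements of an abelian subgroup killed by a power. -/
def om (Q : Subgroup G) (ab : ∀ a ∈ Q, ∀ b ∈ Q, a * b = b * a) (n : ℕ) : Subgroup G where
  carrier := {q | q ∈ Q ∧ q ^ n = 1}
  one_mem' := ⟨Q.one_mem, one_pow n⟩
  mul_mem' := fun {a b} ha hb => ⟨Q.mul_mem ha.1 hb.1, by
    rw [Commute.mul_pow (ab a ha.1 b hb.1), ha.2, hb.2, mul_one]⟩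
  inv_mem' := fun {a} ha => ⟨Q.inv_mem ha.1, by rw [inv_pow, ha.2, inv_one]⟩

theorem p2 [Finite G] {Q K : Subgroup G} [nQ : Q.Normal] {r c : G} (h : H7 Q r) (t : Str Q K r c) :
    c ^ 4 = 1 := by
  by_contra c4
  have ab := t.ab
  have ab' : ∀ a ∈ Q, ∀ b ∈ Q, a * b * a⁻¹ = b := fun a ha b hb => by rw [ab a ha b hb]; group
  have zq : ∀ g, ∀ q ∈ Q, g * q ^ 2 * g⁻¹ = q ^ 2 := by
    let C : Subgroup G :=
      { carrier := {g | ∀ q ∈ Q, g * q ^ 2 * g⁻¹ = q ^ 2}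
        one_mem' := fun q _ => by simp
        mul_mem' := fun {a b} ha hb q hq => by nth_rw 2 [← ha q hq, ← hb q hq]; group
        inv_mem' := fun {a} ha q hq => by nth_rw 1 [← ha q hq]; group }
    haveI : C.Normal := ⟨fun a ha g q hq => by
      have := ha _ (nQ.conj_mem q hq g⁻¹)
      rw [conj_pow] at this
      calc _ = g * (a * (g⁻¹ * q ^ 2 * g⁻¹⁻¹) * a⁻¹) * g⁻¹ := by group
        _ = _ := by rw [this]; group⟩
    exact fun g => (h.top (C := C) (fun a ha q hq => ab' a ha _ (Q.pow_mem hq 2)) (y := r) (fun q hq => by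
      obtain ⟨k, hk, n, rfl⟩ := t.gen q hq
      rw [t.sq' hk, ← conj_pow, ← conj_zpow, t.fix]) h.rQ).ge (mem_top g)
  obtain ⟨m, hm⟩ := (IsPGroup.iff_orderOf.1 h.p) ⟨c, t.mem⟩
  rw [← orderOf_coe] at hm
  change orderOf c = _ at hm
  have m3 : 3 ≤ m := by
    by_contra e
    exact c4 (orderOf_dvd_iff_pow_eq_one.1 (hm ▸ (Nat.pow_dvd_pow 2 (by omega : m ≤ 2))))
  set E := om Q ab 2 with hE
  set H := om Q ab 4 with hH
  haveI nE : E.Normal := ⟨fun a ha g => ⟨nQ.conj_mem a ha.1 g, by rw [conj_pow, ha.2]; simp⟩⟩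
  set B := E ⊓ center G with hB
  have zc : ∀ q ∈ Q, q ^ 2 ∈ center G := fun q hq => mem_center_iff.2 fun g =>
    mul_inv_eq_iff_eq_mul.1 (zq g q hq)
  have dec : ∀ q ∈ H, ∃ k ∈ K, ∃ z ∈ center G, q = k * z := fun q hq => by
    obtain ⟨k, hk, n, rfl⟩ := t.gen q hq.1
    refine ⟨k, hk, _, ?_, rfl⟩
    have e : c ^ (n * 4) = 1 := by
      rw [zpow_mul, ← hq.2, show 4 = 2 * 2 from rfl, pow_mul, t.sq' hk, ← pow_mul]; norm_cast
    have e2 := (Int.natCast_dvd_natCast.2 (Nat.pow_dvd_pow 2 m3)).trans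
      (hm ▸ orderOf_dvd_iff_zpow_eq_one.2 e)
    obtain ⟨j, rfl⟩ : 2 ∣ n := by omega
    rw [mul_comm, zpow_mul]
    exact_mod_cast zc _ (Q.zpow_mem t.mem j)
  have KE : K ≤ E := fun k hk => ⟨t.le hk, t.sq k hk⟩
  have EH : E ≤ H := fun a ha => ⟨ha.1, by rw [show 4 = 2 * 2 from rfl, pow_mul, ha.2, one_pow]⟩
  have HB : ∀ q ∈ H, q ^ 2 ∈ B := fun q hq => ⟨⟨Q.pow_mem hq.1 2, by rw [← pow_mul]; exact hq.2⟩, zc q hq.1⟩
  have cz : ∀ g k, ∀ z ∈ center G, g * (k * z) * g⁻¹ * (k * z)⁻¹ = g * k * g⁻¹ * k⁻¹ := fun g k z hz => by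
    rw [← mul_assoc g, mul_assoc _ z, ← mem_center_iff.1 hz]; group
  have KB : ∀ k ∈ K, k ∈ B → k = 1 := fun k hk e => t.fpf k hk (by rw [mem_center_iff.1 e.2]; group)
  have i8 : B.relIndex E = 8 := by
    have e : E = K ⊔ B := le_antisymm (fun a ha => by
      obtain ⟨k, hk, z, hz, rfl⟩ := dec a (EH ha)
      exact mul_mem_sup hk ⟨by simpa using E.mul_mem (E.inv_mem (KE hk)) ha, hz⟩) (sup_le KE inf_le_left)
    rw [show B.relIndex E = B.relIndex (K ⊔ B) from e ▸ rfl, relIndex_sup_right, ← inf_relIndex_right,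
      show B ⊓ K = ⊥ from eq_bot_iff.2 fun k hk => KB k hk.2 hk.1, relIndex_bot_left, t.card]
  obtain ⟨s, y, y', L, s3, yy, hz, y1, y2, y3, -, BL, LE, ⟨l, l1, l2⟩, i2, g1, g2, g3, g4, g5, -⟩ :=
    glc h (inf_le_left : B ≤ E) i8 (fun a ha => ha.2 ▸ B.one_mem) (fun q hq a ha => by simp [ab' q hq a ha.1])
      (by
      obtain ⟨k, hk, k1⟩ := K.bot_or_exists_ne_one.resolve_left fun e => by simpa [e] using t.card
      exact ⟨k, KE hk, fun e => k1 (t.fpf k hk (mul_inv_eq_one.1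
        (KB _ (K.mul_mem (t.inv k hk) (K.inv_mem hk)) e)))⟩)
  have zf : ∀ g, ∀ z ∈ center G, g * z * g⁻¹ = z := fun g z hz => by rw [mem_center_iff.1 hz]; group
  have sf : ∀ u ∈ Q, s * (s * u * s⁻¹ * u⁻¹) * s⁻¹ = s * u * s⁻¹ * u⁻¹ → s * u * s⁻¹ = u := fun u hu e => by
    have e1 := Q.mul_mem (nQ.conj_mem u hu s) (Q.inv_mem hu)
    exact mul_inv_eq_one.1 (fixo h.p (by decide : Odd 3) s3 e1 (x := u) (by rw [ab u hu _ e1]; group) e)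
  have sL : ∀ a ∈ L, s * a * s⁻¹ = a := fun a ha => sf a (LE ha).1 (zf s _ (g3 a ha).2.2.2)
  have yL : ∀ a ∈ L, y * a * y⁻¹ = a := fun a ha => cent3 s3 (yy ▸ hz) (sL a ha) rfl (zf _ _ (g3 a ha).1.2)
    (zf _ _ (g3 a ha).1.2) (g3 a ha).1.1.2
  set N := H ⊓ centralizer {s} with hN
  have LN : L ≤ N := fun a ha => ⟨EH (LE ha), mcs.2 (sL a ha)⟩
  have yN : ∀ n ∈ N, y * n * y⁻¹ = n := fun n hn => by
    obtain ⟨k, hk, z, hz, rfl⟩ := dec n hn.1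
    refine mul_inv_eq_one.1 ?_
    rw [cz y k z hz, yL k (g5 k (KE hk) (by rw [← cz s k z hz, mcs.1 hn.2]; simp)), mul_inv_cancel]
  have yN' : ∀ n ∈ N, y' * n * y'⁻¹ = n := fun n hn => by
    have e := mcs.1 hn.2
    calc _ = s * (y * (s⁻¹ * (s * n * s⁻¹) * s) * y⁻¹) * s⁻¹ := by rw [e, ← yy]; group
      _ = s * (y * n * y⁻¹) * s⁻¹ := by group
      _ = _ := by rw [yN n hn, e]
  have gH : ∀ g, (∀ a ∈ E, g * a * g⁻¹ * a⁻¹ ∈ L) → ∀ a ∈ H, g * a * g⁻¹ * a⁻¹ ∈ L := fun g hg a ha => by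
    obtain ⟨k, hk, z, hz, rfl⟩ := dec a ha
    rw [cz g k z hz]
    exact hg k (KE hk)
  have sq : ∀ a ∈ Q, ∀ b ∈ Q, (a * b) ^ 2 = a ^ 2 * b ^ 2 := fun a ha b hb => Commute.mul_pow (ab a ha b hb) 2
  have e1 : (y * y') ^ 2 = s⁻¹ * (y ^ 2)⁻¹ * s⁻¹⁻¹ := by
    rw [eq_inv_of_mul_eq_one_left hz, pow_two, pow_two]; group
  have e2 : y' ^ 2 = s * y ^ 2 * s⁻¹ := by rw [← yy, conj_pow]
  have e3 : (y * y') ^ 2 = y * y' * y⁻¹ * y'⁻¹ * (y' * y ^ 2 * y'⁻¹ * y' ^ 2) := by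
    simp only [pow_two]; group
  have e4 : y * (y * y' * y⁻¹ * y'⁻¹) * y⁻¹ * (y * y' * y⁻¹ * y'⁻¹) = y ^ 2 * (y' * (y ^ 2)⁻¹ * y'⁻¹) := by
    simp only [pow_two]; group
  generalize hw : y * y' * y⁻¹ * y'⁻¹ = w at e3 e4
  generalize hb : y ^ 2 = β at *
  have b1 := Q.mul_mem (nQ.conj_mem _ y2 y') (nQ.conj_mem _ y2 s)
  have wQ : w ∈ Q := by
    rw [e1, e2] at e3
    exact (Q.mul_mem_cancel_right b1).1 (e3 ▸ nQ.conj_mem _ (Q.inv_mem y2) s⁻¹)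
  have w4 : w ^ 4 = 1 := by
    have := congrArg (· ^ 2) e4
    rw [sq _ (nQ.conj_mem w wQ y) w wQ, sq _ y2 _ (nQ.conj_mem _ (Q.inv_mem y2) y'), conj_pow, conj_pow,
      zq y w wQ, zq y' _ (Q.inv_mem y2), inv_pow, mul_inv_cancel, ← pow_add] at this
    exact this
  have b4 : β ^ 4 = 1 := by
    have := congrArg (· ^ 2) (e1.symm.trans e3)
    rw [e2, sq w wQ _ b1, sq _ (nQ.conj_mem _ y2 y') _ (nQ.conj_mem _ y2 s), conj_pow, conj_pow, conj_pow,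
      zq y' β y2, zq s β y2, zq _ _ (Q.inv_mem y2), inv_pow, ← mul_inv_eq_iff_eq_mul] at this
    have e : (β ^ 4) ^ 3 = 1 := by
      have := congrArg (· ^ 2) this
      simp only [← pow_mul, w4, ← mul_inv_rev, ← pow_add, inv_pow, inv_eq_one] at this
      simpa [← pow_mul] using this
    obtain ⟨k, hk⟩ := h.p ⟨_, Q.pow_mem y2 4⟩
    have := pow_gcd_eq_one.2 ⟨e, (congrArg Subtype.val hk : (β ^ 4) ^ 2 ^ k = 1)⟩
    rwa [Nat.Coprime.pow_right k (by decide : Nat.Coprime 3 2), pow_one] at this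
  obtain ⟨z1, z2⟩ := tr3 s3 yy (inf_le_left : N ≤ H) (fun n hn => (yN n hn).symm ▸ hn)
    (fun a ha => LN (gH y g1 a ha)) (fun a ha => LN (gH y' g2 a ha))
    (fun u hu e => ⟨hu, mcs.2 (sf u hu.1 (mcs.1 e.2))⟩) (hz ▸ H.one_mem) (hw ▸ ⟨wQ, w4⟩)
  have bN : β ∈ N := by
    obtain ⟨k, hk, z, hz, e⟩ := dec β ⟨y2, b4⟩
    have := g4 k (KE hk) (by rw [← cz y k z hz, ← e, ← hb]; simp [pow_two, mul_assoc]) (by
      rw [hw] at z2
      rw [yN w z2, ← pow_two] at e4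
      rw [← cz y' k z hz, ← e]
      convert B.inv_mem (HB w z2.1) using 1
      rw [e4]; group)
    exact ⟨⟨y2, b4⟩, mcs.2 (by rw [e, ← mul_inv_eq_one, cz s k z hz, sL k this, mul_inv_cancel])⟩
  refine fin2 h.sect s3 yy (LE.trans EH) (fun a ha => ha.1) (fun k hk => BL (HB k hk)) ?_ (gH y g1) (gH y' g2)
    (fun n hn => ⟨yN n hn, yN' n hn, mcs.1 hn.2, BL (HB n hn.1), fun e => g5 n ⟨hn.1.1, e⟩ (by
      simp [mcs.1 hn.2])⟩) (hb ▸ bN) z1 z2 y1 (fun e => y1 (by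
      simpa [← yy, mul_assoc] using nQ.conj_mem _ e s⁻¹)) y3
  have k1 := relIndex_mul_relIndex B L E BL LE
  have k2 : E.relIndex H ≠ 1 := fun e => by
    obtain ⟨j, rfl⟩ := Nat.exists_eq_add_of_le' m3
    have := (relIndex_eq_one.1 e (x := c ^ 2 ^ (j + 1)) ⟨Q.pow_mem t.mem _, by
      rw [← pow_mul, ← pow_orderOf_eq_one c, hm]; congr 1; ring⟩).2
    rw [← pow_mul, ← orderOf_dvd_iff_pow_eq_one, hm, ← pow_succ, Nat.pow_dvd_pow_iff_le_right one_lt_two] at this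
    omega
  have k3 : E.relIndex H ≠ 0 := FiniteIndex.index_ne_zero
  rw [rel2 l1 l2 i2, i8] at k1
  rw [← relIndex_mul_relIndex L E H LE EH, show L.relIndex E = 4 by omega]
  omega

end Cfsg.Agent.GH4
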