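import Mathlib
import Cfsg.Agent.GH4.G

/-! Two-constrained groups of sectional rank four with quotient of order 168. -/

set_option autoImplicit false

namespace Cfsg.Agent.GH4

open Cfsg Subgroup Cfsg.Agent.PGrp

variable {G : Type*} [Group G]

theorem sect_sub (h : Sect 2 4 G) (Y : Subgroup G) : Sect 2 4 Y := fun N K h1 h2 h3 => by
  have := h (N.map Y.subtype) (K.map Y.subtype) ((map_mono h1).trans (le_normalizer_map _))
    (by rw [← map_commutator]; exact map_mono h2) (by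
      rintro _ ⟨x, hx, rfl⟩; exact ⟨_, h3 x hx, rfl⟩)
  rwa [relIndex_map_map_of_injective _ _ Y.subtype_injective] at this

theorem meet [Finite G] {K V C : Subgroup G} (KV : K ≤ V) (h : Nat.card V = Nat.card K * 2) (CV : C ≤ V)
    (h2 : 2 < Nat.card C) : ∃ x ∈ C, x ∈ K ∧ x ≠ 1 := by
  by_contra e
  push Not at e
  letI := Fintype.ofFinite C
  obtain ⟨a, b, c, ab, ac, bc⟩ := Fintype.two_lt_card_iff.1 (h2.trans_eq Nat.card_eq_fintype_card)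
  have T5 : ∀ a b : C, a ≠ b → (a : G)⁻¹ * b ∉ K := fun a b ab k =>
    ab (Subtype.ext (inv_mul_eq_one.1 (e _ (mul_mem (inv_mem a.2) b.2) k)))
  have := idx2 KV h (CV (mul_mem (inv_mem a.2) b.2)) (CV (mul_mem (inv_mem b.2) c.2)) (T5 a b ab) (T5 b c bc)
  exact T5 a c ac (by simpa [mul_assoc] using this)

theorem mqc {N : Subgroup G} [N.Normal] {g x : G} :
    (g : G ⧸ N) * x * (g : G ⧸ N)⁻¹ = x ↔ g * x * g⁻¹ * x⁻¹ ∈ N := by
  rw [← QuotientGroup.eq_one_iff, ← mul_inv_eq_one]; rfl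

theorem orbq [Finite G] (h : Sect 2 4 G) {N V : Subgroup G} [N.Normal] [nV : V.Normal] {r : G} (r7 : r ^ 7 = 1)
    (NV : N ≤ V) (v2 : ∀ a ∈ V, a ^ 2 ∈ N) (hn : ∃ x ∈ V, r * x * r⁻¹ * x⁻¹ ∉ N) :
    ∃ K ≤ V.map (QuotientGroup.mk' N), Nat.card K = 8 ∧ (∀ x ∈ K, r * x * (r : G ⧸ N)⁻¹ ∈ K) ∧
      (∀ x ∈ K, r * x * (r : G ⧸ N)⁻¹ = x → x = 1) ∧ (K = V.map (QuotientGroup.mk' N) ∨
        Nat.card (V.map (QuotientGroup.mk' N)) = 16 ∧ ∃ e ∈ V.map (QuotientGroup.mk' N), e ∉ K ∧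
          r * e * (r : G ⧸ N)⁻¹ = e ∧ ∀ v ∈ V.map (QuotientGroup.mk' N), r * v * (r : G ⧸ N)⁻¹ = v →
            v = 1 ∨ v = e) :=
  orb1 (by rintro _ ⟨x, hx, rfl⟩; exact (QuotientGroup.eq_one_iff (x ^ 2)).2 (v2 x hx))
    (by rw [← relIndex_ker, QuotientGroup.ker_mk']; exact sect2 h NV v2)
    (by rw [← QuotientGroup.mk_pow, r7, QuotientGroup.mk_one])
    (by rintro _ ⟨x, hx, rfl⟩; exact ⟨_, nV.conj_mem x hx r, rfl⟩)
    fun e => hn.elim fun x hx => hx.2 (mqc.1 (mcs.1 (e ⟨x, hx.1, rfl⟩)))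

theorem lift8 {N V : Subgroup G} [N.Normal] {r : G} (NV : N ≤ V) {K : Subgroup (G ⧸ N)}
    (k1 : K ≤ V.map (QuotientGroup.mk' N)) (k2 : Nat.card K = 8)
    (k3 : ∀ x ∈ K, r * x * (r : G ⧸ N)⁻¹ ∈ K) (k4 : ∀ x ∈ K, r * x * (r : G ⧸ N)⁻¹ = x → x = 1)
    {A : Subgroup G} (hA : K.comap (QuotientGroup.mk' N) = A) :
    N ≤ A ∧ A ≤ V ∧ N.relIndex A = 8 ∧ (∀ x ∈ A, r * x * r⁻¹ ∈ A) ∧
      ∀ x ∈ A, r * x * r⁻¹ * x⁻¹ ∈ N → x ∈ N := by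
  subst hA
  refine ⟨fun x hx => by simp [(QuotientGroup.eq_one_iff x).2 hx], fun x hx => (mem_mq NV).1 (k1 hx), ?_,
    fun x hx => k3 _ hx, fun x hx e => (QuotientGroup.eq_one_iff x).1 (k4 _ hx (mqc.2 e))⟩
  rw [← k2, ← map_comap_eq_self_of_surjective (QuotientGroup.mk'_surjective N) K, ← relIndex_ker,
    QuotientGroup.ker_mk', map_comap_eq_self_of_surjective (QuotientGroup.mk'_surjective N)]

theorem nontr [Finite G] {Q N : Subgroup G} (hQ : IsPGroup 2 Q) {r : G} (r7 : r ^ 7 = 1) (NQ : N ≤ Q)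
    [nN : N.Normal] (hN : N ≤ centralizer {r}) {x : G} (h : r * x * r⁻¹ * x⁻¹ ∈ N) : r * x * r⁻¹ = x := by
  have e : x⁻¹ * (r * x * r⁻¹) ∈ N := by simpa [mul_assoc] using nN.conj_mem _ h x⁻¹
  exact (inv_mul_eq_one.1 (fixo hQ (by decide : Odd 7) r7 (NQ e) (x := x) (by group) (mcs.1 (hN e)))).symm

theorem e8 (n : ℕ) : ∀ (X : Type*) [Group X] [Finite X] (Q : Subgroup X) [Q.Normal] (r : X), Nat.card Q = n →
    Sect 2 4 X → IsPGroup 2 Q → r ^ 7 = 1 → ¬ Q ≤ centralizer {r} → ∃ K ≤ Q, Nat.card K = 8 ∧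
      (∀ k ∈ K, k ^ 2 = 1) ∧ (∀ k ∈ K, r * k * r⁻¹ ∈ K) ∧ ∀ k ∈ K, r * k * r⁻¹ = k → k = 1 := by
  induction n using Nat.strong_induction_on with
  | _ n ih =>
  intro X _ _ Q nQ r hn h hQ r7 hr
  by_cases h0 : ∃ P < Q, (∀ x ∈ P, r * x * r⁻¹ ∈ P) ∧ ¬ P ≤ centralizer {r}
  · obtain ⟨P, p1, p2, p3⟩ := h0
    let Y := normalizer (P : Set X)
    have rY : r ∈ Y := mem_normalizer_fintype p2
    have e := subgroupOfEquivOfLe (le_normalizer : P ≤ Y)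
    obtain ⟨K, k1, k2, k3, k4, k5⟩ := ih (Nat.card P) (hn ▸ lt_of_le_of_ne (card_le_of_le p1.le)
      fun e => p1.ne (eq_of_le_of_card_ge p1.le e.ge)) Y (P.subgroupOf Y) ⟨r, rY⟩ (Nat.card_congr e.toEquiv)
      (sect_sub h Y) ((hQ.to_le p1.le).of_equiv e.symm) (Subtype.ext r7) fun e' => p3 fun x hx =>
        mcs.2 (congrArg Subtype.val (mcs.1 (e' (x := ⟨x, le_normalizer hx⟩) hx)))
    refine ⟨K.map Y.subtype, ?_, (card_map_of_injective Y.subtype_injective).trans k2, ?_, ?_, ?_⟩ <;>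
      rintro _ ⟨x, hx, rfl⟩
    exacts [p1.le (k1 hx), congrArg Subtype.val (k3 x hx), ⟨_, k4 x hx, rfl⟩,
      fun e => congrArg Subtype.val (k5 x hx (Subtype.ext e))]
  push Not at h0
  set W := (frattini Q).map Q.subtype with hW
  have mW : ∀ x : Q, (x : X) ∈ W ↔ x ∈ frattini Q := fun x => mem_map_iff_mem Q.subtype_injective
  have WQ : W ≤ Q := map_subtype_le _
  have q2 := fun x (hx : x ∈ Q) => pow_mem_map_frattini hQ hx
  have W1 : W ≤ centralizer {r} := h0 W (lt_of_le_of_ne WQ fun e => hr (by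
    have : (⊥ : Subgroup Q) = ⊤ := frattini_nongenerating (eq_top_iff.2 fun x _ =>
      mem_sup_right ((mW x).1 (e.ge x.2)))
    intro x hx
    rw [show x = 1 from congrArg Subtype.val (mem_bot.1 (this.ge (mem_top ⟨x, hx⟩)))]
    exact one_mem _)) fun x hx => Normal.conj_mem inferInstance x hx r
  obtain ⟨K, k1, k2, k3, k4, -⟩ := orbq h r7 WQ q2 (by
    by_contra e
    push Not at e
    exact hr fun x hx => mcs.2 (nontr hQ r7 WQ W1 (e x hx)))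
  obtain ⟨a1, a2, a3, a4, a5⟩ := lift8 WQ k1 k2 k3 k4 rfl
  generalize K.comap (QuotientGroup.mk' W) = A at *
  obtain rfl : A = Q := by
    by_contra e
    rw [relIndex_eq_one.2 fun x hx => a5 x hx (by simp [mcs.1 (h0 A (lt_of_le_of_ne a2 e) a4 hx)])] at a3
    omega
  have c2 := class_two hQ (ρ := MulAut.conjNormal r) (fun x hx => (mW x).1 (a5 x x.2 (by
    simpa [mul_assoc] using Normal.conj_mem inferInstance _ ((mW _).2 hx) (x : X))))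
    fun w hw => Subtype.ext (mcs.1 (W1 ((mW w).2 hw)))
  have i8 : (frattini A).index = 8 := by
    rw [← a3, ← relIndex_top_right, ← relIndex_map_map_of_injective _ _ A.subtype_injective,
      ← MonoidHom.range_eq_map, range_subtype]
  obtain ⟨x, hx⟩ := exists_out hQ ∅ (by simp; omega)
  have hx' : (x : X) ∉ W := fun e => hx (mem_sup_left ((mW x).1 e))
  have k5 := t7q a3 r7 a5 (S := {y | y ∈ A ∧ y ^ 2 = x ^ 2}) (fun y hy => ⟨a4 y hy.1, by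
      rw [conj_pow, mcs.1 (W1 (q2 y hy.1)), hy.2]⟩) (by
      rintro y hy _ ⟨w, hw, rfl⟩
      refine ⟨A.mul_mem hy.1 w.2, hy.2 ▸ congrArg Subtype.val (show (⟨y, hy.1⟩ * w : A) ^ 2 = ⟨y, hy.1⟩ ^ 2 from ?_)⟩
      rw [Commute.mul_pow (mem_center_iff.1 (c2 w hw).1 _), (c2 w hw).2, mul_one]) a4 ⟨x.2, rfl⟩ x.2 hx'
  have k6 : x ^ 2 = 1 := seven hQ c2 i8.ge (Z := ⊥) (pow_mem_frattini hQ x) fun y hy =>
    inv_mul_eq_one.2 (Subtype.ext (k5 y y.2 (mt (mW y).1 hy)).2.symm)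
  have k7 : ∀ y ∈ A, y ^ 2 = 1 := fun y hy => by
    by_cases e : y ∈ W
    · exact congrArg Subtype.val (c2 ⟨y, hy⟩ ((mW _).1 e)).2
    · exact (k5 y hy e).2.trans (congrArg Subtype.val k6)
  have k8 : W = ⊥ := by
    rw [hW, le_bot_iff.1 (frat_le hQ (N := ⊥) fun y => Subtype.ext (k7 y y.2)), Subgroup.map_bot]
  rw [k8, relIndex_bot_left] at a3
  exact ⟨A, le_rfl, a3, k7, a4, fun k hk e => mem_bot.1 (k8 ▸ a5 k hk (by simp [e]))⟩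

theorem p1 [Finite G] {Q : Subgroup G} [nQ : Q.Normal] {r : G} (h : Sect 2 4 G) (hQ : IsPGroup 2 Q)
    (r7 : r ^ 7 = 1) (hr : ¬ Q ≤ centralizer {r}) (hs : ∀ q ∈ Q, r * q ^ 2 * r⁻¹ = q ^ 2) :
    ∃ K c, Str Q K r c := by
  obtain ⟨K, k1, k2, k3, k4, k5⟩ := e8 _ G Q r rfl h hQ r7 hr
  set W := (frattini Q).map Q.subtype with hW
  have WQ : W ≤ Q := map_subtype_le _
  have q2 := fun x (hx : x ∈ Q) => pow_mem_map_frattini hQ hx
  have W1 : W ≤ centralizer {r} := map_le_iff_le_comap.2 (frat_le hQ fun x => mcs.2 (hs x x.2))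
  obtain ⟨k, hk, k0⟩ := K.bot_or_exists_ne_one.resolve_left fun e => by simp [e] at k2
  have cen : ∀ d, r * d * r⁻¹ = d → d * (r * k * r⁻¹ * k⁻¹) * d⁻¹ = r * k * r⁻¹ * k⁻¹ → K ≤ centralizer {d} :=
    fun d hd e => t7' k2 r7 k5 (fun x hx => mcs.2 (by
      calc _ = r * ((r⁻¹ * (r * d * r⁻¹) * r) * x * (r⁻¹ * (r * d * r⁻¹) * r)⁻¹) * r⁻¹ := by rw [hd]; group
        _ = r * (d * x * d⁻¹) * r⁻¹ := by group
        _ = _ := by rw [mcs.1 hx])) k4 (mcs.2 e) (K.mul_mem (k4 k hk) (K.inv_mem hk))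
      fun e => k0 (k5 k hk (mul_inv_eq_one.1 e))
  have KW : ∀ w ∈ W, K ≤ centralizer {w} := fun w hw => cen w (mcs.1 (W1 hw)) (by
    have e := mcs.1 (W1 (Normal.conj_mem inferInstance w hw k⁻¹))
    calc _ = (r * w * r⁻¹) * (r * k * r⁻¹ * k⁻¹) * w⁻¹ := by rw [mcs.1 (W1 hw)]
      _ = r * k * r⁻¹ * (r * (k⁻¹ * w * k⁻¹⁻¹) * r⁻¹) * k⁻¹ * w⁻¹ := by group
      _ = _ := by rw [e]; group)
  have cen2 : ∀ d ∈ Q, r * d * r⁻¹ = d → K ≤ centralizer {d} := fun d hd e => cen d e (by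
    have e1 := comm_mem q2 hd (k1 hk)
    generalize hw : d * k * d⁻¹ * k⁻¹ = w at e1
    calc _ = (r * d * r⁻¹) * (r * k * r⁻¹) * (r * d * r⁻¹)⁻¹ * (d * k * d⁻¹)⁻¹ := by rw [e]; group
      _ = (r * w * r⁻¹) * (r * k * r⁻¹ * k⁻¹) * w⁻¹ := by rw [← hw]; group
      _ = _ := by rw [mcs.1 (W1 e1), mcs.1 (KW w e1 (K.mul_mem (k4 k hk) (K.inv_mem hk)))])
  set K1 := K ⊔ W with hK1
  have K1Q : K1 ≤ Q := sup_le k1 WQ
  have i1 : W.relIndex K1 = 8 := by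
    rw [relIndex_sup_right, ← inf_relIndex_right, show W ⊓ K = ⊥ from eq_bot_iff.2 fun k hk =>
      k5 k hk.2 (mcs.1 (W1 hk.1)), relIndex_bot_left, k2]
  have r1 : ∀ x ∈ K1, r * x * r⁻¹ ∈ K1 := fun x hx => by
    obtain ⟨a, ha, b, hb, rfl⟩ := mem_sup_of_normal_right.1 hx
    rw [show r * (a * b) * r⁻¹ = r * a * r⁻¹ * (r * b * r⁻¹) by group, mcs.1 (W1 hb)]
    exact mul_mem_sup (k4 a ha) hb
  obtain ⟨c, c1, c2, c3⟩ : ∃ c ∈ Q, r * c * r⁻¹ = c ∧ ∀ q ∈ Q, q ∈ K1 ∨ q * c ∈ K1 := by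
    by_cases e : Q ≤ K1
    · exact ⟨1, Q.one_mem, by simp, fun q hq => Or.inl (e hq)⟩
    obtain ⟨g, g1, g2⟩ := SetLike.not_le_iff_exists.1 e
    have i2 : Nat.card Q = Nat.card K1 * 2 := by
      have e1 := relIndex_mul_relIndex W K1 Q le_sup_right K1Q
      have e2 := sect2 h WQ q2
      have e3 : K1.relIndex Q ≠ 1 := mt relIndex_eq_one.1 e
      have e4 : K1.relIndex Q ≠ 0 := FiniteIndex.index_ne_zero
      have e5 := (K1.subgroupOf Q).card_mul_index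
      rw [Nat.card_congr (subgroupOfEquivOfLe K1Q).toEquiv] at e5
      rw [i1] at e1
      rw [← e5, show (K1.subgroupOf Q).index = K1.relIndex Q from rfl, show K1.relIndex Q = 2 by omega]
    have r2 : ∀ x, r * x * r⁻¹ ∈ K1 → x ∈ K1 := fun x hx => by simpa [mul_assoc] using inv_conj r1 _ hx
    obtain ⟨j, hj⟩ := IsPGroup.iff_card.1 (hQ.to_le K1Q)
    obtain ⟨c, c1, c2⟩ := exists_fixed_mem_coset (a := MulAut.conj r) (N := K1) (g := g)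
      (fun x => ⟨r2 x, r1 x⟩) (idx2 K1Q i2 (Q.inv_mem g1) (nQ.conj_mem g g1 r) (mt K1.inv_mem_iff.1 g2)
        (mt (r2 g) g2)) (by norm_num : Nat.Prime 7) (k := 1) (by rw [pow_one, ← map_pow, r7, map_one])
      (hj ▸ fun e => absurd ((by norm_num : Nat.Prime 7).dvd_of_dvd_pow e) (by decide))
    have c3 : c ∈ Q := by simpa using Q.mul_mem g1 (K1Q c1)
    exact ⟨c, c3, c2, fun q hq => or_iff_not_imp_left.2 fun e => idx2 K1Q i2 hq c3 e fun e' => g2 (by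
      simpa using K1.mul_mem e' (K1.inv_mem c1))⟩
  have kc : ∀ k ∈ K, Commute k c := fun k hk => mem_centralizer_singleton_iff.1 (cen2 c c1 c2 hk)
  let M : Subgroup G :=
    { carrier := {q | ∃ k ∈ K, ∃ n : ℤ, q = k * c ^ n}
      one_mem' := ⟨1, K.one_mem, 0, by simp⟩
      mul_mem' := by
        rintro _ _ ⟨a, ha, n, rfl⟩ ⟨b, hb, m, rfl⟩
        exact ⟨_, K.mul_mem ha hb, n + m, by
          rw [zpow_add, mul_assoc, mul_assoc, ← mul_assoc b, ((kc b hb).zpow_right n).eq, mul_assoc]⟩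
      inv_mem' := by
        rintro _ ⟨a, ha, n, rfl⟩
        exact ⟨_, K.inv_mem ha, -n, by rw [← ((kc a ha).zpow_right n).eq.symm, mul_inv_rev, zpow_neg]⟩ }
  have KM : K ≤ M := fun k hk => ⟨k, hk, 0, by simp⟩
  have : M.subgroupOf Q = ⊤ := frattini_nongenerating (eq_top_iff.2 fun x _ => by
    have m1 : ∀ y : Q, (y : G) ∈ K1 → y ∈ M.subgroupOf Q ⊔ frattini Q := fun y hy => by
      obtain ⟨a, ha, _, ⟨b, hb, rfl⟩, e⟩ := mem_sup_of_normal_right.1 hy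
      rw [show y = ⟨a, k1 ha⟩ * b from Subtype.ext e.symm]
      exact mul_mem_sup (KM ha) hb
    refine (c3 x x.2).elim (m1 x) fun e => ?_
    have m2 : (⟨c, c1⟩ : Q) ∈ M.subgroupOf Q := ⟨1, K.one_mem, 1, by simp⟩
    simpa using mul_mem (m1 (x * ⟨c, c1⟩) e) (inv_mem (mem_sup_left m2)))
  exact ⟨K, c, k1, k2, k3, k4, k5, c1, c2, kc, fun q hq => this.ge (mem_top (⟨q, hq⟩ : Q))⟩

theorem topA [Finite G] {Q E : Subgroup G} [nQ : Q.Normal] [E.Normal] {r : G} (h : H7 Q r) (EQ : E ≤ Q)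
    (q2 : ∀ q ∈ Q, q ^ 2 ∈ E) (hn : ∃ x ∈ Q, r * x * r⁻¹ * x⁻¹ ∉ E) :
    ∃ A : Subgroup G, E ≤ A ∧ A ≤ Q ∧ E.relIndex A = 8 ∧ (∀ x ∈ A, r * x * r⁻¹ ∈ A) ∧
      (∀ x ∈ A, r * x * r⁻¹ * x⁻¹ ∈ E → x ∈ E) ∧ ((A.Normal ∧ ∀ y ∉ Q, y ^ 2 ∈ Q → y ^ 2 ∈ A) ∨
        ∃ e ∈ Q, e ∉ A ∧ (∀ g, g * e * g⁻¹ * e⁻¹ ∈ E) ∧ (∀ a ∈ Q, ∀ b ∈ Q, a ∉ A → b ∉ A → a * b ∈ A) ∧
          ∀ s, s ^ 3 = 1 → ∃ a ∈ A, a ∉ E ∧ s * a * s⁻¹ * a⁻¹ ∈ E) := by
  obtain ⟨K, k1, k2, k3, k4, k5⟩ := orbq h.sect h.r7 EQ q2 hn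
  obtain ⟨a1, a2, a3, a4, a5⟩ := lift8 EQ k1 k2 k3 k4 rfl
  refine ⟨_, a1, a2, a3, a4, a5, ?_⟩
  haveI := nQ.map _ (QuotientGroup.mk'_surjective E)
  obtain rfl | ⟨k6, _, ⟨e, e1, rfl⟩, e2, e3, e4⟩ := k5
  · exact Or.inl ⟨inferInstance, fun y _ hy => ⟨_, hy, rfl⟩⟩
  have v2 : ∀ a ∈ Q.map (QuotientGroup.mk' E), a ^ 2 = 1 := by
    rintro _ ⟨x, hx, rfl⟩; exact (QuotientGroup.eq_one_iff (x ^ 2)).2 (q2 x hx)
  by_cases hg : ∃ g : G ⧸ E, g * e * g⁻¹ ≠ e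
  · obtain ⟨o1, o2⟩ := orb2 (h.quot EQ) v2 k6 (vcomm v2) k1 k2 k3 k4 ⟨e, e1, rfl⟩ e2 e3 e4 hg
    exact Or.inl ⟨inferInstance, fun y y1 y2 => o2 y (mt (mem_mq EQ).1 y1) ⟨_, y2, rfl⟩ _ ⟨_, y2, rfl⟩
      (mqc.2 (by simp [pow_two, mul_assoc]))⟩
  push Not at hg
  refine Or.inr ⟨e, e1, e2, fun g => mqc.1 (hg g), fun a ha b hb =>
    idx2 k1 (by omega) ⟨a, ha, rfl⟩ ⟨b, hb, rfl⟩, fun s s3 => ?_⟩
  have c1 := sub_modEq Nat.prime_three (Q.map (QuotientGroup.mk' E)) (r := s)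
    (fun x hx => Normal.conj_mem ‹_› x hx _) (by simp [← QuotientGroup.mk_pow, s3])
  have c2 := (one_lt_card_iff_ne_bot (Q.map (QuotientGroup.mk' E) ⊓ centralizer {(s : G ⧸ E)})).2 fun e' =>
    e2 (mem_bot.1 (e'.le ⟨⟨e, e1, rfl⟩, mcs.2 (hg s)⟩) ▸ K.one_mem)
  obtain ⟨x, ⟨⟨a, -, rfl⟩, x1⟩, x2, x3⟩ := meet k1 (by omega) (inf_le_left (b := centralizer {(s : G ⧸ E)}))
    (by rw [k6] at c1; unfold Nat.ModEq at c1; omega)
  exact ⟨a, x2, mt (QuotientGroup.eq_one_iff a).2 x3, mqc.1 (mcs.1 x1)⟩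

theorem Str.two {Q K : Subgroup G} {r c : G} (h : Str Q K r c) (c4 : c ^ 4 = 1) {a : G} (ha : a ∈ Q)
    (a1 : a ^ 2 ≠ 1) : a ^ 2 = c ^ 2 := by
  obtain ⟨k, hk, n, rfl⟩ := h.gen a ha
  have e : ∀ j : ℤ, (c ^ (2 * j)) ^ 2 = 1 := fun j => by
    calc _ = (c ^ 4) ^ j := by group
      _ = _ := by rw [c4, one_zpow]
  rw [h.sq' hk] at a1 ⊢
  obtain ⟨j, rfl | rfl⟩ := Int.even_or_odd' n
  · exact absurd (e j) a1
  · calc _ = (c ^ (2 * j)) ^ 2 * c ^ 2 := by group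
      _ = _ := by rw [e, one_mul]

theorem main7 (n : ℕ) : ∀ (X : Type*) [Group X] [Finite X], Nat.card X = n → ∀ (Q : Subgroup X) [Q.Normal]
    (r : X), H7 Q r → ¬ Q ≤ centralizer {r} → ∃ K c, Str Q K r c ∧ c ^ 4 = 1 := by
  induction n using Nat.strong_induction_on with
  | _ n ih =>
  intro X _ _ hn Q nQ r h hr
  by_cases hs : ∀ q ∈ Q, r * q ^ 2 * r⁻¹ = q ^ 2
  · obtain ⟨K, c, t⟩ := p1 h.sect h.p h.r7 hr hs
    exact ⟨K, c, t, p2 h t⟩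
  exfalso
  have IH : ∀ (N : Subgroup X) [N.Normal], N ≤ Q → N ≠ ⊥ → (∃ x ∈ Q, r * x * r⁻¹ * x⁻¹ ∉ N) →
      ∃ K c, Str (Q.map (QuotientGroup.mk' N)) K (r : X ⧸ N) c ∧ c ^ 4 = 1 := fun N _ NQ N0 hx =>
    haveI := nQ.map _ (QuotientGroup.mk'_surjective N)
    ih _ (hn ▸ (N.card_mul_index ▸ lt_mul_left FiniteIndex.index_ne_zero.bot_lt
      ((one_lt_card_iff_ne_bot N).2 N0))) (X ⧸ N) rfl _ _ (h.quot NQ)
      fun e => hx.elim fun x hx => hx.2 (mqc.1 (mcs.1 (e ⟨x, hx.1, rfl⟩)))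
  have hN : ∀ (N : Subgroup X) [N.Normal], N ≤ Q → N ≤ centralizer {r} → N = ⊥ := fun N _ NQ Nr => by
    by_contra N0
    obtain ⟨K, c, t, -⟩ := IH N NQ N0 (by
      by_contra e
      push Not at e
      exact hr fun x hx => mcs.2 (nontr h.p h.r7 NQ Nr (e x hx)))
    refine hs fun q hq => nontr h.p h.r7 NQ Nr (mqc.1 ?_)
    obtain ⟨k, hk, n, e⟩ := t.gen q ⟨q, hq, rfl⟩
    rw [QuotientGroup.mk_pow, e, t.sq' hk, ← conj_pow, ← conj_zpow, t.fix]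
  have hZ : ∀ z ∈ Q, (∀ g, g * z * g⁻¹ = z) → z = 1 := fun z hz e =>
    mem_bot.1 ((hN (Q ⊓ center X) inf_le_left (inf_le_right.trans (center_le_centralizer _))).le
      ⟨hz, mem_center_iff.2 fun g => mul_inv_eq_iff_eq_mul.1 (e g)⟩)
  obtain ⟨E, nE, E0, hE⟩ := exists_central (W := Q) h.p le_rfl fun e => hr (e ▸ bot_le)
  have EQ : E ≤ Q := fun x hx => ((hE x).1 hx).1
  have e2 : ∀ x ∈ E, x ^ 2 = 1 := fun x hx => ((hE x).1 hx).2.1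
  have hc : ∀ q ∈ Q, ∀ x ∈ E, q * x = x * q := fun q hq x hx => ((hE x).1 hx).2.2 q hq
  have sq : ∀ g, ∀ q ∈ Q, g * q * g⁻¹ * q⁻¹ ∈ E → g * q ^ 2 * g⁻¹ = q ^ 2 := fun g q hq e => by
    rw [← conj_pow, ← inv_mul_cancel_right (g * q * g⁻¹) q, Commute.mul_pow (hc q hq _ e).symm, e2 _ e, one_mul]
  have hn : ∃ x ∈ Q, r * x * r⁻¹ * x⁻¹ ∉ E := by
    by_contra e
    push Not at e
    exact hs fun q hq => sq r q hq (e q hq)
  have q2 : ∀ q ∈ Q, q ^ 2 ∈ E := fun q hq => by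
    obtain ⟨K, c, t, c4⟩ := IH E EQ E0 hn
    by_contra e
    refine e ((hE _).2 ⟨Q.pow_mem hq 2, hZ _ (Q.pow_mem (Q.pow_mem hq 2) 2) fun g => sq g _ (Q.pow_mem hq 2)
      (mqc.1 ?_), fun x hx => mul_inv_eq_iff_eq_mul.1 (sq x q hq (mqc.1 (mul_inv_eq_iff_eq_mul.2
        (t.ab _ ⟨x, hx, rfl⟩ _ ⟨q, hq, rfl⟩))))⟩)
    have e' : (q : X ⧸ E) ^ 2 ≠ 1 := mt (QuotientGroup.eq_one_iff (q ^ 2)).1 e
    rw [QuotientGroup.mk_pow, ← conj_pow, t.two c4 (a := q) ⟨q, hq, rfl⟩ e']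
    exact t.two c4 ⟨_, nQ.conj_mem q hq g, rfl⟩ (by simpa using e')
  obtain ⟨A, a1, a2, a3, a4, a5, a6⟩ := topA h EQ q2 hn
  obtain ⟨U, u1, u2, u3, u4, u5⟩ := orb1 e2 (by simpa using sect2 h.sect (N := ⊥) bot_le (by simpa using e2))
    h.r7 (fun x hx => nE.conj_mem x hx r) (mt (hN E EQ) E0)
  obtain rfl | ⟨c1, e, f1, f2, f3, f4⟩ := u5
  · obtain ⟨nA, a6⟩ | ⟨e, f1, f2, f3, f4, f5⟩ := a6
    · exact z4 h a1 a2 e2 u2 hc u4 a3 q2 a5 fun y y1 y2 => Or.inl (a6 y y1 y2)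
    have f6 : e ^ 2 = 1 := hZ _ (Q.pow_mem f1 2) fun g => sq g e f1 (f3 g)
    obtain ⟨-, inj⟩ := sqb h.sect h.r7 a1 (fun q hq => hc q (a2 hq)) u2 e2 u4 a3 (fun q hq => q2 q (a2 hq)) a4 a5
    have n1 : ∀ a ∈ A, a ^ 2 = 1 → a ∈ U := fun a ha e => by simpa using inj 1 A.one_mem a ha (by simp [e])
    obtain ⟨s0, hs0⟩ := exists_prime_orderOf_dvd_card' (G := X ⧸ Q) 3 (by rw [← index_eq_card, h.i]; decide)
    obtain ⟨s, s1, s3⟩ := lift_odd h.p (by decide : Odd 3) s0 (hs0 ▸ pow_orderOf_eq_one s0)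
    have s2 : s ∉ Q := fun e => by rw [← s1, (QuotientGroup.eq_one_iff s).2 e] at hs0; simp at hs0
    have s4 : Nat.card (U ⊓ centralizer {s} : Subgroup X) = 2 := by
      have c1 := sub_modEq Nat.prime_three U (fun x hx => nE.conj_mem x hx s) (by simp [s3])
      have c2 := h.cen hc u2 e2 u4 s2
      rw [u2] at c1
      unfold Nat.ModEq at c1
      omega
    obtain ⟨a, b1, b2, b3⟩ := f5 s s3
    have cm : ∀ g a, g * a * g⁻¹ * a⁻¹ ∈ U → g * (a * e) * g⁻¹ * (a * e)⁻¹ ∈ U := fun g a e' => by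
      simpa [mul_assoc] using U.mul_mem (nE.conj_mem _ (f3 g) (g * a * g⁻¹)) e'
    have dec : ∀ q ∈ Q, q ∉ A → q * e ∈ A := fun q hq e' => f4 q hq e f1 e' f2
    have ee : ∀ q, q * e * e = q := fun q => by rw [mul_assoc, ← pow_two, f6, mul_one]
    have re : ∀ x ∈ Q, r * x * r⁻¹ * e = (r * e * r⁻¹ * e⁻¹)⁻¹ * (r * (x * e) * r⁻¹) := fun x hx => by
      calc _ = r * x * r⁻¹ * (r * e * r⁻¹ * e⁻¹)⁻¹ * (r * e * r⁻¹) := by group
        _ = _ := by rw [hc _ (nQ.conj_mem x hx r) _ (U.inv_mem (f3 r))]; group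
    have b4 : (a * e) ^ 2 = 1 := by
      by_contra b4
      have ae := Q.mul_mem (a2 b1) f1
      have b5 := idx2 (K := ⊥) (M := U ⊓ centralizer {s}) bot_le (by simpa using s4)
        ⟨q2 _ ae, mcs.2 (sq s _ ae (cm s a b3))⟩ ⟨q2 a (a2 b1), mcs.2 (sq s a (a2 b1) b3)⟩ b4 (mt (n1 a b1) b2)
      rw [mem_bot, mul_eq_one_iff_eq_inv, vinv (e2 _ (q2 a (a2 b1)))] at b5
      have b6 := t7q a3 h.r7 a5 (S := {x | x ∈ Q ∧ x * e = e * x}) (fun x hx => ⟨nQ.conj_mem x hx.1 r, by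
          rw [re x hx.1, hx.2]; group⟩) (fun x hx n hn => ⟨Q.mul_mem hx.1 (EQ hn), by
          rw [mul_assoc, ← hc e f1 n hn, ← mul_assoc, hx.2, mul_assoc]⟩) a4 ⟨a2 b1, by
          rw [← ee (e * a), mul_left_cancel (a := a) (show a * (e * a * e) = a * a by
            simpa [pow_two, mul_assoc] using b5)]⟩ b1 b2
      have b7 : A ≤ centralizer {e} := fun x hx => by
        by_cases k : x ∈ U
        exacts [mem_centralizer_singleton_iff.2 (hc e f1 x k).symm, mem_centralizer_singleton_iff.2 (b6 x hx k).2]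
      refine f2 (a1 ((hE e).2 ⟨f1, f6, fun q hq => ?_⟩))
      by_cases k : q ∈ A
      · exact mem_centralizer_singleton_iff.1 (b7 k)
      · calc _ = e * (q * e) * e := by rw [← mem_centralizer_singleton_iff.1 (b7 (dec q hq k)), ee]
          _ = _ := by rw [← mul_assoc, ee]
    have b5 := t7q a3 h.r7 a5 (S := {x | x ∈ Q ∧ (x * e) ^ 2 = 1}) (fun x hx => ⟨nQ.conj_mem x hx.1 r, by
        rw [re x hx.1, Commute.mul_pow (hc _ (nQ.conj_mem _ (Q.mul_mem hx.1 f1) r) _ (U.inv_mem (f3 r))).symm,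
          e2 _ (U.inv_mem (f3 r)), conj_pow, hx.2]; group⟩) (fun x hx n hn => ⟨Q.mul_mem hx.1 (EQ hn), by
        rw [mul_assoc, ← hc e f1 n hn, ← mul_assoc, Commute.mul_pow (hc _ (Q.mul_mem hx.1 f1) n hn), hx.2,
          e2 n hn, mul_one]⟩) a4 ⟨a2 b1, b4⟩ b1 b2
    have b6 : ∀ q ∈ Q, q ∉ A → q ^ 2 = 1 := fun q hq k => by
      rw [← ee q]
      by_cases k' : q * e ∈ U
      · rw [Commute.mul_pow (hc e f1 _ k').symm, e2 _ k', f6, mul_one]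
      · exact (b5 _ (dec q hq k) k').2
    haveI : A.Normal := ⟨fun x hx g => by_contra fun k => k (a1 (nE.conj_mem _ (n1 x hx (by
      simpa using b6 _ (nQ.conj_mem x (a2 hx) g) k)) g))⟩
    refine z4 h a1 a2 e2 u2 hc u4 a3 q2 a5 fun y _ y2 => or_iff_not_imp_left.2 fun k x hx => ?_
    have := b6 _ (Q.mul_mem y2 (a2 hx)) fun k' => k (by simpa using A.mul_mem k' (A.inv_mem hx))
    rw [vinv (b6 _ y2 k), eq_inv_iff_mul_eq_one, ← this, pow_two (_ * x), mul_assoc (_ * x)]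
  obtain ⟨nU, o2⟩ := orb2 h e2 c1 hc u1 u2 u3 u4 f1 f2 f3 f4 (by
    by_contra k
    push Not at k
    exact f2 (hZ e (EQ f1) k ▸ U.one_mem))
  obtain ⟨nA, a6⟩ | ⟨e', g1, g2, g3, -⟩ := a6
  · refine caseA h a1 a2 e2 c1 hc a3 q2 ?_ fun y y1 y2 => ⟨a6 y y1 y2, (card_le_of_le (H := E ⊓ centralizer {y})
      (K := U ⊓ centralizer {y}) fun x hx =>
      ⟨o2 y y1 y2 x hx.1 (mcs.1 hx.2), hx.2⟩).trans (h.cen (fun q hq v hv => hc q hq v (u1 hv)) u2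
        (fun a ha => e2 a (u1 ha)) u4 y1)⟩
    by_contra k
    push Not at k
    rw [relIndex_eq_one.2 fun a ha => a5 a ha (k a ha)] at a3
    omega
  have := card_ext (mt (a1 ·) g2) (hc e' g1) (vcomm e2) e2 (hZ _ (Q.pow_mem g1 2) fun g => sq g e' g1 (g3 g))
    h.sect
  omega

end Cfsg.Agent.GH4
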